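import Cfsg.Agent.H68.CovU

/-! Artin–Schreier operators normalised by an isometry in characteristic three. -/

set_option autoImplicit false
set_option backward.isDefEq.respectTransparency false

namespace Cfsg.Agent.H68

open Polynomial Module Matrix Submodule Cfsg.Agent.H98 Cfsg.Agent.H99

universe u
variable {F : Type u} [Field F]

section alg
variable {A : Type*} [Ring A] [Algebra F A]

theorem three_smul (h3 : (3 : F) = 0) (x : A) : x + x + x = 0 := by
  have : (3 : F) • x = x + x + x := by module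
  rw [← this, h3, zero_smul]

theorem jacobson3 (h3 : (3 : F) = 0) (J b : A) (h : b * (J * b - b * J) = (J * b - b * J) * b) :
    (J + b) ^ 3 = J ^ 3 + b ^ 3 + (J * (J * b - b * J) - (J * b - b * J) * J) := by
  have e := three_smul h3 (J * b * J + b * J * b)
  have : (J + b) ^ 3 = J ^ 3 + b ^ 3 + (J * (J * b - b * J) - (J * b - b * J) * J) +
      ((J * b - b * J) * b - b * (J * b - b * J)) +
      (J * b * J + b * J * b + (J * b * J + b * J * b) + (J * b * J + b * J * b)) := by
    noncomm_ring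
  rw [this, e, h, sub_self, add_zero, add_zero]

theorem exists_shift (h3 : (3 : F) = 0) {g g' J : A} (h1 : g * g' = 1) (h2 : g' * g = 1)
    (hJ : g * J = (J + 1) * g) {τ : F} (hN : (g + g' - τ • 1) ^ 3 = 0) (k : F) {b : A}
    (hb : b = k • ((g + g' - τ • 1) * (g + g'))) : g * b = b * g ∧
      (J + b) ^ 3 - (J + b) = J ^ 3 - J + k • 1 := by
  have c0 : Commute g g' := h1.trans h2.symm
  have c1 : Commute g (g + g') := (Commute.refl g).add_right c0
  have c2 : Commute g' (g + g') := c0.symm.add_right (Commute.refl g')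
  have c3 : Commute g b := hb ▸ ((c1.sub_right ((Commute.one_right g).smul_right τ)).mul_right
    c1).smul_right k
  have c4 : Commute g' b := hb ▸ ((c2.sub_right ((Commute.one_right g').smul_right τ)).mul_right
    c2).smul_right k
  have j1 : J * g = g * J - g := by rw [hJ]; noncomm_ring
  have j2 : J * g' = g' * J + g' := by
    have : g' * (g * J) * g' = g' * ((J + 1) * g) * g' := by rw [hJ]
    rw [← mul_assoc, h2, one_mul, mul_assoc, mul_assoc, h1, mul_one, mul_add, mul_one] at this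
    exact this
  have j3 : J * (g * g) = g * g * J - (g * g + g * g) := by
    rw [← mul_assoc, j1, sub_mul, mul_assoc, j1]; noncomm_ring
  have j4 : J * (g' * g') = g' * g' * J + (g' * g' + g' * g') := by
    rw [← mul_assoc, j2, add_mul, mul_assoc, j2]; noncomm_ring
  have b1 : b = k • (g * g + g' * g' + 1 + 1 - τ • g - τ • g') := by
    rw [hb]; simp only [sub_mul, add_mul, mul_add, h1, h2, smul_mul_assoc, one_mul]; module
  have d1 : J * b - b * J = k • (g' * g' + g' * g' - (g * g + g * g) + τ • g - τ • g') := by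
    rw [b1]
    simp only [mul_smul_comm, smul_mul_assoc, mul_sub, mul_add, sub_mul, add_mul, j1, j2, j3, j4,
      mul_one, one_mul]
    module
  have d2 : J * (J * b - b * J) - (J * b - b * J) * J = b + k • 1 := by
    rw [d1, b1]
    simp only [mul_smul_comm, smul_mul_assoc, mul_sub, mul_add, sub_mul, add_mul, j1, j2, j3, j4]
    linear_combination (norm := module) h3 • k • (g * g + g' * g' - 1 : A)
  have b3 : b ^ 3 = 0 := by
    rw [hb, _root_.smul_pow, ((c1.add_left c2).sub_left ((Commute.one_left _).smul_left τ)).mul_pow, hN,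
      zero_mul, smul_zero]
  refine ⟨c3, ?_⟩
  rw [jacobson3 h3 J b, d2, b3]
  · abel
  · rw [d1]
    exact (((((c4.mul_left c4).add_left (c4.mul_left c4)).sub_left ((c3.mul_left c3).add_left
      (c3.mul_left c3))).add_left (c3.smul_left τ)).sub_left (c4.smul_left τ)).smul_left k |>.symm

theorem eq_zero_of_sq (h3 : (3 : F) = 0) {g g' m J z : A} (h1 : g' * g = 1) (hm : g * m = m * g)
    (hJ : m * J - J * m = g) (hz : J * z = z * J) (h : m * m * z = 0) : z = 0 := by
  have e1 : m * z = 0 := by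
    have a : g * (m * z) + g * (m * z) = m * m * z * J - J * (m * m * z) := by
      rw [mul_assoc (m * m) z, ← hz]
      nth_rewrite 1 [← mul_assoc, hm]
      rw [← hJ]; noncomm_ring
    rw [h, zero_mul, mul_zero, sub_zero] at a
    have b := three_smul h3 (g * (m * z))
    rw [a, zero_add] at b
    rw [← one_mul (m * z), ← h1, mul_assoc, b, mul_zero]
  have e2 : g * z = m * z * J - J * (m * z) := by
    rw [mul_assoc m z, ← hz, ← hJ]; noncomm_ring
  rw [e1, zero_mul, mul_zero, sub_zero] at e2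
  rw [← one_mul z, ← h1, mul_assoc, e2, mul_zero]

theorem pow_mul_J {g J : A} (hJ : g * J = (J + 1) * g) (n : ℕ) :
    g ^ n * J - J * g ^ n = (n : F) • g ^ n := by
  induction n with
  | zero => simp
  | succ n ih =>
    rw [pow_succ, mul_assoc, hJ, ← mul_assoc, mul_add, sub_eq_iff_eq_add.1 ih]
    simp only [add_mul, mul_one, smul_mul_assoc, mul_assoc, Nat.cast_succ]
    module

end alg

variable {ι : Type} [Fintype ι] [DecidableEq ι] {σ : F ≃+* F} {ε : F}
  {f : (ι → F) → (ι → F) → F} {g : Matrix ι ι F}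

theorem ext_span {α : Type*} {b : α → ι → F} (hb : span F (Set.range b) = ⊤) {x y : Matrix ι ι F}
    (h : ∀ a, x *ᵥ b a = y *ᵥ b a) : x = y :=
  toLin'.injective (LinearMap.ext_on_range hb h)

theorem exists_J_of [Nonempty ι] (h3 : (3 : F) = 0) (hf : IsSesq σ ε f) (hg : adj σ f g * g = 1)
    {J₁ : Matrix ι ι F} (hJ : g * J₁ = (J₁ + 1) * g) {τ : F} (hτ : σ τ = τ)
    (hN : (g + adj σ f g - τ • 1) ^ 3 = 0)
    (hz : ∀ z J : Matrix ι ι F, adj σ f z = z → g * z = z * g → J * z = z * J →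
      g * J = (J + 1) * g → ∃ a : F, z = a • 1) {c : F} (hc : σ c = c) :
    ∃ J, (adj σ f J = J ∧ J ^ 3 - J = c • 1) ∧ g * J = (J + 1) * g := by
  have hg' := mul_eq_one_comm.1 hg
  have h1 : g * adj σ f J₁ = (adj σ f J₁ + 1) * g := by
    have e := congrArg (adj σ f) hJ
    rw [hf.adj_mul, hf.adj_mul, hf.adj_add, hf.adj_one] at e
    have : g * (adj σ f J₁ * adj σ f g) * g = g * (adj σ f g * (adj σ f J₁ + 1)) * g := by rw [e]
    rwa [← mul_assoc g (adj σ f g), hg', one_mul, mul_assoc, mul_assoc, hg, mul_one] at this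
  set J := -(J₁ + adj σ f J₁) with hJ'
  have h2 : g * J = (J + 1) * g := by
    rw [hJ', mul_neg, mul_add, hJ, h1, ← sub_eq_zero, ← neg_eq_zero, ← three_smul h3 g]
    noncomm_ring
  have h4 : adj σ f J = J := by rw [hJ', hf.adj_neg, hf.adj_add, hf.adj_adj, add_comm]
  have h5 : adj σ f (J ^ 3 - J) = J ^ 3 - J := by rw [hf.adj_sub, hf.adj_pow, h4]
  obtain ⟨a, ha⟩ := hz (J ^ 3 - J) J h5 (by
    have e : g * J ^ 3 = (J + 1) ^ 3 * g := (SemiconjBy.pow_right h2 3).eq
    rw [mul_sub, e, h2, ← sub_mul, ← sub_eq_zero, ← sub_mul,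
      show (J + 1) ^ 3 - (J + 1) - (J ^ 3 - J) = (J * J + J) + (J * J + J) + (J * J + J) by
        noncomm_ring, three_smul h3, zero_mul]) (by noncomm_ring) h2
  rw [ha, hf.adj_smul, hf.adj_one] at h5
  have h6 : σ a = a := smul_left_injective F (one_ne_zero (α := Matrix ι ι F)) h5
  obtain ⟨e1, e2⟩ := exists_shift h3 hg' hg h2 hN (c - a) rfl
  refine ⟨_, ⟨?_, by rw [e2, ha, ← add_smul, add_sub_cancel]⟩, ?_⟩
  · simp only [hf.adj_add, h4, hf.adj_smul, hf.adj_mul, hf.adj_sub, hf.adj_adj, hf.adj_one, map_sub,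
      hc, h6, hτ, add_comm (adj σ f g) g]
    congr 2
    simp only [mul_sub, sub_mul, mul_smul_comm, smul_mul_assoc, mul_one, one_mul]
  · rw [mul_add, e1, h2]; noncomm_ring

theorem exists_J1 (h3 : (3 : F) = 0) {κ : Type} [Fintype κ] (b : Fin 3 × κ → ι → F)
    (hb : span F (Set.range b) = ⊤) (hc : 3 * Fintype.card κ = Fintype.card ι)
    (h0 : ∀ k, g *ᵥ b (0, k) = b (1, k)) (h1 : ∀ k, g *ᵥ b (1, k) = b (2, k))
    (h2 : ∀ k, g *ᵥ b (2, k) ∈ span F (Set.range fun k => b (0, k))) :
    ∃ J : Matrix ι ι F, g * J = (J + 1) * g := by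
  let B := basisOfTopLeSpanOfCardEqFinrank b hb.ge (by simp [hc])
  have hB : ∀ a, B a = b a := fun a => by simp [B]
  let L := B.constr F fun a => -((a.1 : ℕ) : F) • b a
  have hL : ∀ a, LinearMap.toMatrix' L *ᵥ b a = -((a.1 : ℕ) : F) • b a := fun a => by
    rw [LinearMap.toMatrix'_mulVec, ← hB, Basis.constr_basis, hB]
  have hL0 : ∀ x ∈ span F (Set.range fun k => b (0, k)), LinearMap.toMatrix' L *ᵥ x = 0 :=
    fun x hx => by
      refine LinearMap.eqOn_span (f := toLin' (LinearMap.toMatrix' L)) (g := 0) ?_ hx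
      rintro _ ⟨k, rfl⟩
      simpa using hL (0, k)
  refine ⟨LinearMap.toMatrix' L, ext_span hb ?_⟩
  rintro ⟨i, k⟩
  rw [← mulVec_mulVec, ← mulVec_mulVec, hL, mulVec_smul, add_mulVec, one_mulVec]
  fin_cases i
  · simp [h0, hL]
  · simp only [Fin.mk_one, h1, hL]; simp; module
  · simp only [Fin.reduceFinMk, hL0 _ (h2 k)]
    linear_combination (norm := (simp; module)) -h3 • g *ᵥ b (2, k)

theorem top_of_nil {m : Matrix ι ι F} (hm : m ^ 3 = 0) {κ : Type} [Fintype κ] (u : κ → ι → F)
    (hu : LinearIndependent F fun k => m *ᵥ m *ᵥ u k) (hc : 3 * Fintype.card κ = Fintype.card ι)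
    {U : Submodule F (ι → F)} (hU : ∀ v ∈ U, m *ᵥ v ∈ U) (h : ∀ k, u k ∈ U) : U = ⊤ := by
  have h3 : ∀ v, m *ᵥ m *ᵥ m *ᵥ v = 0 := fun v => by
    rw [mulVec_mulVec, mulVec_mulVec, ← pow_three', hm, zero_mulVec]
  have hu' := Fintype.linearIndependent_iff.1 hu
  have key : LinearIndependent F fun a : Fin 3 × κ => ![u a.2, m *ᵥ u a.2, m *ᵥ m *ᵥ u a.2] a.1 := by
    refine Fintype.linearIndependent_iff.2 fun c hc => ?_
    simp only [Fintype.sum_prod_type, Fin.sum_univ_three, cons_val_zero, cons_val_one, cons_val] at hc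
    have e0 := hu' (fun k => c (0, k)) (by
      simpa [mulVec_add, mulVec_sum, mulVec_smul, h3, -mulVec_mulVec] using
        congrArg (fun v => m *ᵥ m *ᵥ v) hc)
    have e1 := hu' (fun k => c (1, k)) (by
      simpa [mulVec_add, mulVec_sum, mulVec_smul, h3, e0, -mulVec_mulVec] using
        congrArg (fun v => m *ᵥ v) hc)
    have e2 := hu' (fun k => c (2, k)) (by simpa [e0, e1] using hc)
    rintro ⟨i, k⟩
    fin_cases i
    exacts [e0 k, e1 k, e2 k]
  rw [eq_top_iff, ← key.span_eq_top_of_card_eq_finrank' (by simp [hc]), span_le]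
  rintro _ ⟨⟨i, k⟩, rfl⟩
  fin_cases i
  exacts [h k, hU _ (h k), hU _ (hU _ (h k))]

theorem cyc_comm {α : Type} [Fintype α] (e : α → ℕ) {v : ι → F}
    (hb : span F (Set.range fun a => g ^ e a *ᵥ v) = ⊤) (hc : Fintype.card α = Fintype.card ι)
    {z J : Matrix ι ι F} (h1 : g * z = z * g) (h2 : J * z = z * J) (hJ : g * J = (J + 1) * g) :
    ∃ p : α → F, z = ∑ a, p a • g ^ e a ∧ ∀ a, p a * e a = 0 := by
  have hi := linearIndependent_of_top_le_span_of_card_eq_finrank hb.ge (by simp [hc])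
  obtain ⟨p, hp⟩ := (mem_span_range_iff_exists_fun F).1 (hb ▸ mem_top : z *ᵥ v ∈ _)
  have hz : z = ∑ a, p a • g ^ e a := ext_span hb fun a => by
    rw [mulVec_mulVec, ← (Commute.pow_left h1 (e a)).eq, ← mulVec_mulVec, ← hp]
    simp only [mulVec_sum, Finset.sum_mul, smul_mul_assoc, sum_mulVec, smul_mulVec, mulVec_smul,
      mulVec_mulVec, ← pow_add, add_comm]
  refine ⟨p, hz, Fintype.linearIndependent_iff.1 hi _ ?_⟩
  have : ∑ a, (p a * e a) • g ^ e a = z * J - J * z := by
    rw [hz, Finset.sum_mul, Finset.mul_sum, ← Finset.sum_sub_distrib]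
    refine Finset.sum_congr rfl fun a _ => ?_
    rw [mul_smul, ← pow_mul_J (F := F) hJ, smul_sub, smul_mul_assoc, mul_smul_comm]
  rw [h2, sub_self] at this
  simpa [sum_mulVec, smul_mulVec] using congrArg (· *ᵥ v) this

end Cfsg.Agent.H68
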