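import Cfsg.Agent.H68.Cov0
import Cfsg.Agent.H68.BlkSL
import Cfsg.Agent.H67.Char2Quad
import Cfsg.Agent.H27.QuadClass
import Cfsg.Agent.H27.Sp
import Cfsg.Agent.H10.SpSimple

/-! Normal 2-coverings of `SL_n` (`n ≤ 4`) and of `Sp_2m` in characteristic 2. -/

set_option autoImplicit false
set_option backward.isDefEq.respectTransparency false

namespace Cfsg.Agent.H68

open Polynomial Module Matrix
open scoped LinearAlgebra.Projectivization

variable {F : Type*} [Field F]

theorem exists_root_of_deg_one {f : F[X]} (h : f.natDegree = 1) : ∃ c, f.eval c = 0 :=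
  exists_root_of_degree_eq_one (by
    rw [degree_eq_natDegree (by rintro rfl; simp at h), h]; rfl)

theorem deg_cases {μ f : F[X]} (hμ : μ.Monic) (h : ∀ c, μ.eval c ≠ 0) (hf : Irreducible f)
    (hd : f ∣ μ) : 2 ≤ f.natDegree ∧ f.natDegree ≤ μ.natDegree ∧ μ.natDegree ≠ f.natDegree + 1 := by
  obtain ⟨g, rfl⟩ := hd
  have h0 := hμ.ne_zero
  have e := natDegree_mul (left_ne_zero_of_mul h0) (right_ne_zero_of_mul h0)
  have h1 := hf.natDegree_pos
  refine ⟨?_, by omega, fun h2 => ?_⟩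
  · by_contra h2
    obtain ⟨c, hc⟩ := exists_root_of_deg_one (f := f) (by omega)
    exact h c (by rw [eval_mul, hc, zero_mul])
  · obtain ⟨c, hc⟩ := exists_root_of_deg_one (f := g) (by omega)
    exact h c (by rw [eval_mul, hc, mul_zero])

theorem exists_eig_of_root {ι : Type*} [Fintype ι] [DecidableEq ι] {A : Matrix ι ι F} {c : F}
    (h : A.charpoly.eval c = 0) : ∃ v, v ≠ 0 ∧ A *ᵥ v = c • v := by
  rw [Matrix.eval_charpoly, ← Matrix.exists_mulVec_eq_zero_iff] at h
  obtain ⟨v, hv, e⟩ := h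
  refine ⟨v, hv, ?_⟩
  rw [sub_mulVec, scalar_apply, ← smul_one_eq_diagonal, smul_mulVec, one_mulVec] at e
  exact (sub_eq_zero.1 e).symm

theorem aeval_conj {A : Type*} [Ring A] [Algebra F A] {g g' J : A} (h : g * g' = 1)
    (h' : g' * g = 1) (P : F[X]) : aeval (g * J * g') P = g * aeval J P * g' := by
  induction P using Polynomial.induction_on' with
  | add p q hp hq => simp only [map_add, hp, hq, mul_add, add_mul]
  | monomial n a =>
    have : (g * J * g') ^ n = g * J ^ n * g' := by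
      induction n with
      | zero => simp [h]
      | succ n ih => rw [pow_succ, ih, pow_succ]; simp only [mul_assoc]; rw [← mul_assoc g', h', one_mul]
    simp only [aeval_monomial, this, Algebra.algebraMap_eq_smul_one, smul_mul_assoc, one_mul,
      mul_smul_comm]

theorem comm_aeval {A : Type*} [Ring A] [Algebra F A] {g T : A} (h : g * T = T * g) (P : F[X]) :
    g * aeval T P = aeval T P * g := by
  induction P using Polynomial.induction_on' with
  | add p q hp hq => simp only [map_add, hp, hq, mul_add, add_mul]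
  | monomial n a =>
    simp only [aeval_monomial, Algebra.algebraMap_eq_smul_one, smul_mul_assoc, one_mul,
      mul_smul_comm, (Commute.pow_right h n).eq]

theorem half_J {G A : Type*} [Group G] [Nontrivial G] [Ring A] [Algebra F A] (ρ : G →* A)
    (T : AddSubgroup F) (S : A → Prop)
    (htr : ∀ J J', S J → S J' → ∃ g, ρ g * J = J' * ρ g)
    (hmv : ∀ J, S J → ∃ g, ∀ c ∈ T, ρ g * J ≠ (J + c • 1) * ρ g) :
    Half G fun g => ∃ J, S J ∧ ∃ c ∈ T, ρ g * J = (J + c • 1) * ρ g := by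
  have hi : ∀ g, ρ g * ρ g⁻¹ = 1 := fun g => by rw [← map_mul, mul_inv_cancel, map_one]
  have hi' : ∀ g, ρ g⁻¹ * ρ g = 1 := fun g => by rw [← map_mul, inv_mul_cancel, map_one]
  have key : ∀ g J J', ρ g * J * ρ g⁻¹ = J' ↔ ρ g * J = J' * ρ g := fun g J J' =>
    ⟨fun e => by rw [← e, mul_assoc _ _ (ρ g), hi', mul_one],
      fun e => by rw [e, mul_assoc, hi, mul_one]⟩
  refine (half_of_act (fun g J => ρ g * J * ρ g⁻¹) (fun J J' => ∃ c ∈ T, J = J' + c • 1)
    ⟨fun J => ⟨0, T.zero_mem, by simp⟩, ?_, ?_⟩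
    (fun g h x => by simp only [_root_.mul_inv_rev, map_mul, mul_assoc]) (fun x => by simp) ?_ S
    (fun J J' h h' => ?_) fun J h => ?_).mono fun g ⟨J, h1, c, h2, h3⟩ => ⟨J, h1, c, h2, ?_⟩
  · rintro _ J ⟨c, hc, rfl⟩
    exact ⟨-c, T.neg_mem hc, by simp⟩
  · rintro _ _ J ⟨c, hc, rfl⟩ ⟨d, hd, rfl⟩
    exact ⟨d + c, T.add_mem hd hc, by rw [add_smul, add_assoc]⟩
  · rintro g _ J ⟨c, hc, rfl⟩
    exact ⟨c, hc, by simp only [mul_add, add_mul, mul_smul_comm, smul_mul_assoc, mul_one, hi]⟩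
  · obtain ⟨g, hg⟩ := htr J J' h h'
    exact ⟨g, 0, T.zero_mem, by simpa [key] using hg⟩
  · obtain ⟨g, hg⟩ := hmv J h
    exact ⟨g, fun ⟨c, h1, h2⟩ => hg c h1 ((key _ _ _).1 h2)⟩
  · exact (key _ _ _).2 h3

variable [Finite F]

theorem cov_SL {n l : ℕ} (hn : 2 ≤ n) (hl : 2 ≤ l)
    (h : ∀ d, 2 ≤ d → d ≤ n → n ≠ d + 1 → l ∣ d) : Cov2 (Matrix.SpecialLinearGroup (Fin n) F) := by
  have : Nontrivial (Fin n) := Fin.nontrivial_iff_two_le.2 hn
  obtain ⟨i, j, hij⟩ := exists_pair_ne (Fin n)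
  have : Nontrivial (Matrix.SpecialLinearGroup (Fin n) F) := ⟨Matrix.SpecialLinearGroup.transvection hij 1, 1,
    fun e => by
      have := congrFun (congrFun (congrArg Subtype.val e) i) j
      change Matrix.transvection i j (1 : F) i j = (1 : Matrix _ _ F) i j at this
      simp [Matrix.transvection] at this⟩
  have h1 := half_of_act (G := Matrix.SpecialLinearGroup (Fin n) F) (X := ℙ F (Fin n → F))
    (fun g x => g • x) Eq eq_equivalence mul_smul (one_smul _) (fun _ _ _ e => e ▸ rfl)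
    (fun _ => True) (fun x y _ _ => MulAction.exists_smul_eq _ x y) (fun x _ => by
      have : Nontrivial (ℙ F (Fin n → F)) := ⟨Projectivization.mk F (Pi.single i 1) (by simp),
        Projectivization.mk F (Pi.single j 1) (by simp), fun e => by
          obtain ⟨a, ha⟩ := (Projectivization.mk_eq_mk_iff' F _ _ _ _).1 e
          simpa [hij] using congrFun ha i⟩
      obtain ⟨y, hy⟩ := exists_ne x
      obtain ⟨g, hg⟩ := MulAction.exists_smul_eq (Matrix.SpecialLinearGroup (Fin n) F) x y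
      exact ⟨g, hg ▸ hy⟩)
  obtain ⟨P, hP, hm, hd⟩ := exists_irr_deg (F := F) (n := l) (by omega)
  have h2 := half_J (H65.slCoeHom (ι := Fin n) (R := F)) (⊥ : AddSubgroup F) (fun J => aeval J P = 0)
    (fun J J' hJ hJ' => by
      obtain ⟨c, hc⟩ := isConj_of_irr hP hm hJ hJ'
      obtain ⟨C, hC, hC'⟩ := exists_comm_det_sqf hP.squarefree hJ
        (inv_ne_zero ((Matrix.isUnit_iff_isUnit_det _).1 c.isUnit).ne_zero)
      let g : Matrix.SpecialLinearGroup (Fin n) F := ⟨c.val * C.val, by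
        rw [det_mul, hC', mul_inv_cancel₀ ((Matrix.isUnit_iff_isUnit_det _).1 c.isUnit).ne_zero]⟩
      refine ⟨g, ?_⟩
      change c.val * C.val * J = J' * (c.val * C.val)
      rw [mul_assoc, hC, ← mul_assoc, hc.eq, mul_assoc])
    (fun J hJ => by
      by_contra hc
      push Not at hc
      obtain ⟨r, hr⟩ := Matrix.mem_range_scalar_of_commute_transvectionStruct (M := J) fun t => by
        obtain ⟨c, h0, e⟩ := hc (Matrix.SpecialLinearGroup.transvection t.hij t.c)
        rw [AddSubgroup.mem_bot.1 h0, zero_smul, add_zero] at e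
        exact e
      rw [← hr, show scalar (Fin n) r = algebraMap F _ r from rfl, aeval_algebraMap_apply,
        map_eq_zero_iff _ (algebraMap F _).injective, coe_aeval_eq_eval] at hJ
      exact not_root_of_irr hP (by omega) r hJ)
  refine cov2_of_half h1 h2 fun g => ?_
  by_cases hr : ∃ c, g.1.charpoly.eval c = 0
  · obtain ⟨c, hc⟩ := hr
    obtain ⟨v, hv, e⟩ := exists_eig_of_root hc
    refine Or.inl ⟨Projectivization.mk F v hv, trivial, ?_⟩
    rw [Projectivization.smul_mk, Projectivization.mk_eq_mk_iff']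
    exact ⟨c, e.symm⟩
  · push Not at hr
    obtain ⟨R, hR⟩ := exists_root_poly g.1.charpoly_monic g.1.aeval_self_charpoly hP
      fun f hf _ hdv => by
        obtain ⟨c1, c2, c3⟩ := deg_cases g.1.charpoly_monic hr hf hdv
        rw [charpoly_natDegree_eq_dim, Fintype.card_fin] at c2 c3
        exact hd ▸ h _ c1 c2 c3
    refine Or.inr ⟨_, hR, 0, AddSubgroup.zero_mem _, ?_⟩
    rw [zero_smul, add_zero]
    exact comm_aeval rfl R

theorem cov_PSL {n l : ℕ} (hn : 3 ≤ n ∨ (n = 2 ∧ 4 ≤ Nat.card F)) (hl : 2 ≤ l)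
    (h : ∀ d, 2 ≤ d → d ≤ n → n ≠ d + 1 → l ∣ d) : Cov2 (ProjectiveSpecialLinearGroup (Fin n) F) :=
  (cov_SL (by omega) hl h).quot (qs_SL hn).1.commutator_eq_top

theorem cov_Sp_two [CharP F 2] {m : ℕ} (hm : 2 ≤ m) : Cov2 (symplecticGroup (Fin m) F) := by
  have := H10.nontrivial_sp (F := F) (m := m) (by omega)
  have key : ∀ {W : Type _} [AddCommGroup W] [Module F W] (N : W → F), Half (symplecticGroup (Fin m) F)
      fun g => ∃ Q : QuadraticForm F (Fin m ⊕ Fin m → F),
        ((∀ x y, QuadraticMap.polar Q x y = sympForm m F x y) ∧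
          ∃ φ : (Fin m ⊕ Fin m → F) ≃ₗ[F] W, ∀ v, Q v = N (φ v)) ∧
        Q.comp (toLin' (g⁻¹).1) = Q := by
    intro W _ _ N
    refine half_of_act (X := QuadraticForm F (Fin m ⊕ Fin m → F)) 
      (fun (g : symplecticGroup (Fin m) F) Q => Q.comp (toLin' (g⁻¹).1)) Eq eq_equivalence
      (fun g h Q => ?_) (fun Q => ?_) (fun _ _ _ e => e ▸ rfl) _ ?_ ?_
    · ext v; simp [H27.sp_mul_mulVec]
    · ext v; simp
    · rintro Q Q' ⟨h1, φ, hφ⟩ ⟨h2, ψ, hψ⟩
      have e : ∀ v, Q' ((φ.trans ψ.symm) v) = Q v := fun v => by simp [hφ, hψ]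
      obtain ⟨A, hA⟩ := H27.exists_sp_of_isometry (φ.trans ψ.symm).toLinearMap fun u v => by
        rw [← h2, ← h1]
        simp only [QuadraticMap.polar, LinearEquiv.coe_coe, ← map_add, e]
      refine ⟨A, ?_⟩
      ext v
      rw [QuadraticMap.comp_apply, toLin'_apply, ← e, ← LinearEquiv.coe_coe, ← hA,
        H27.sp_mulVec_inv_mulVec]
    · rintro Q ⟨h1, -⟩
      obtain ⟨v, -, hv, hQ⟩ := H27.exists_singular_of_three_le Q ⊤ (by simp; omega)
      obtain ⟨x, hx⟩ : ∃ x, sympForm m F x v ≠ 0 := by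
        by_contra hc
        push Not at hc
        exact hv (H27.eq_zero_of_sympForm_right hc)
      refine ⟨(H27.spT v 1)⁻¹, fun e => hx ?_⟩
      have := congrArg (fun Q : QuadraticForm F _ => Q x) e
      simp only [inv_inv, QuadraticMap.comp_apply, toLin'_apply, H27.spT_mulVec, H27.quad_add,
        H27.quad_smul, hQ, h1, H27.sympForm_smul_right] at this
      exact pow_eq_zero_iff (n := 2) two_ne_zero |>.1 (by linear_combination this)
  obtain ⟨b, hb⟩ := H27.exists_anisotropic_binary F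
  refine cov2_of_half (key (quadFormPlus m F))
    (key (quadFormMinus (m - 1) F 1 b)) fun g => ?_
  obtain ⟨Q, h1, h2⟩ := H67.exists_invariant_quad (H67.QPlus F m) (T := toLin' (g⁻¹).1) fun x y => by
    simp only [H67.polar_QPlus_eq_sympForm, toLin'_apply, H27.sp_sympForm]
  simp only [H67.polar_QPlus_eq_sympForm] at h1
  have h3 : Q.comp (toLin' (g⁻¹).1) = Q := QuadraticMap.ext h2
  rcases H27.quad_equiv_plus_or_minus (Q := Q) (m := m) (fun x hx => H27.eq_zero_of_sympForm_left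
    fun y => by rw [← h1]; exact hx y) (by simp; omega) hb with h | ⟨-, h⟩
  · exact Or.inl ⟨Q, ⟨h1, h⟩, h3⟩
  · exact Or.inr ⟨Q, ⟨h1, h⟩, h3⟩

end Cfsg.Agent.H68
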