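import Cfsg.Agent.H68.CovU3
import Cfsg.Agent.H99.FmAlt

/-! Self-adjoint operators for a symplectic form in characteristic three. -/

set_option autoImplicit false
set_option backward.isDefEq.respectTransparency false

namespace Cfsg.Agent.H68

open Polynomial Module Matrix Submodule Cfsg.Agent.H98 Cfsg.Agent.H99

universe u
variable {F : Type u} [Field F] {ι : Type} [Fintype ι] [DecidableEq ι]
  {f : (ι → F) → (ι → F) → F} {g t S N J : Matrix ι ι F}

local notation "𝐀" => adj (RingEquiv.refl F) f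

variable (h3 : (3 : F) = 0) (hf : IsSesq (RingEquiv.refl F) (-1) f)
include hf

theorem skew (u v : ι → F) : f u v = -f v u := by simpa using hf.herm u v

theorem sa_move (hS : 𝐀 S = S) (u v : ι → F) : f (S *ᵥ u) v = f u (S *ᵥ v) := by
  rw [hf.adj_spec, hS]

theorem adj_aeval (hS : 𝐀 S = S) (R : F[X]) : 𝐀 (aeval S R) = aeval S R := by
  induction R using Polynomial.induction_on' with
  | add p r hp hr => rw [map_add, hf.adj_add, hp, hr]
  | monomial n c => simp [aeval_monomial, Algebra.algebraMap_eq_smul_one, hf.adj_smul, hf.adj_pow, hS]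

theorem perp_ker_sa (hS : 𝐀 S = S) :
    H9.perp hf (LinearMap.ker (toLin' S)) = LinearMap.range (toLin' S) := by
  have h1 := H9.finrank_add_finrank_perp hf (LinearMap.ker (toLin' S))
  have h2 := LinearMap.finrank_range_add_finrank_ker (toLin' S)
  rw [finrank_fun'] at h2
  refine (Submodule.eq_of_le_of_finrank_eq ?_ (by omega)).symm
  rintro _ ⟨x, rfl⟩ y hy
  rw [toLin'_apply, sa_move hf hS, show S *ᵥ y = 0 from hy, hf.zero_right]

include h3

theorem sa_alt (hS : 𝐀 S = S) (v : ι → F) : f (S *ᵥ v) v = 0 := by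
  have := skew hf v (S *ᵥ v)
  rw [← sa_move hf hS] at this
  exact (mul_eq_zero.1 (show 2 * f (S *ᵥ v) v = 0 by linear_combination this)).resolve_left
    (two_ne_of_three h3)

theorem alt3 (v : ι → F) : f v v = 0 := by simpa using sa_alt h3 hf hf.adj_one v

theorem exists_lag (ht : 𝐀 t = t) (v : ι → F) : ∃ L : Submodule F (ι → F), v ∈ L ∧
    TInv (toLin' t) L ∧ H9.perp hf L = L := by
  let c : (ι → F) → Submodule F (ι → F) := fun w => span F (Set.range fun i : ℕ => t ^ i *ᵥ w)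
  have c1 : ∀ w, w ∈ c w := fun w => subset_span ⟨0, by simp⟩
  have c2 : ∀ w, TInv (toLin' t) (c w) := fun w => span_inv fun i =>
    subset_span ⟨i + 1, by simp only [mulVec_mulVec, pow_succ']⟩
  have c3 : ∀ w (W : Submodule F (ι → F)), TInv (toLin' t) W → w ∈ W → c w ≤ W :=
    fun w W h1 h2 => span_le.2 (by
      rintro _ ⟨i, rfl⟩
      simpa [← toLin'_pow] using h1.pow i w h2)
  have c4 : ∀ W, TInv (toLin' t) W → TInv (toLin' t) (H9.perp hf W) := fun W h x hx y hy => by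
    rw [toLin'_apply, sa_move hf ht]; exact hx _ (h y hy)
  have c5 : ∀ w, Ort f (c w) (c w) := fun w => (le_perp_iff hf).1 (c3 w _ (c4 _ (c2 w)) (by
    refine (H9.mem_perp' hf).2 fun y hy => ((le_perp_iff hf).1 (span_le.2 ?_ :
      c w ≤ H9.perp hf (span F {w}))) y hy w (mem_span_singleton_self w)
    rintro _ ⟨i, rfl⟩
    exact ort_span_span hf (sa_alt h3 hf (by rw [hf.adj_pow, ht]) w) _ (mem_span_singleton_self _)))
  obtain ⟨L, ⟨l1, l2, l3⟩, l4⟩ := set_has_maximal_iff_noetherian.2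
    (inferInstance : IsNoetherian F (ι → F)) {L | v ∈ L ∧ TInv (toLin' t) L ∧ Ort f L L}
    ⟨c v, c1 v, c2 v, c5 v⟩
  refine ⟨L, l1, l2, le_antisymm (fun w hw => ?_) l3⟩
  have := l4 (L ⊔ c w) ⟨mem_sup_left l1, l2.sup (c2 w), l3.sup_self hf (c5 w)
    (Ort.symm hf (c3 w _ (c4 _ l2) hw))⟩
  rw [eq_of_le_of_not_lt le_sup_left this]
  exact mem_sup_right (c1 w)

theorem sa_nil (hd : Fintype.card ι = 6) (hN : 𝐀 N = N) (h : IsNilpotent N) : N ^ 3 = 0 := by
  refine ext_of_mulVec_single fun i => ?_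
  obtain ⟨L, l1, l2, l3⟩ := exists_lag h3 hf hN (Pi.single i 1)
  have h1 := H9.finrank_add_finrank_perp hf L
  rw [l3, hd] at h1
  have h2 := LinearMap.aeval_self_charpoly ((toLin' N).restrict l2)
  rw [(Module.End.isNilpotent.restrict l2 (h.map toLinAlgEquiv')).charpoly_eq_X_pow_finrank,
    show finrank F L = 3 by omega] at h2
  have := aeval_restrict_coe l2 (X ^ 3) ⟨_, l1⟩
  rw [h2] at this
  rw [zero_mulVec]
  simpa [← toLin'_pow] using this.symm

theorem sa_noeig [Finite F] (hd : Fintype.card ι = 6) (ht : 𝐀 t = t)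
    (h : ∀ v (c : F), t *ᵥ v = c • v → v = 0) {P : F[X]} (hP : Irreducible P)
    (hP3 : P.natDegree = 3) : ∃ R : F[X], aeval (aeval t R) P = 0 := by
  obtain ⟨L, -, l2, l3⟩ := exists_lag h3 hf ht 0
  have h1 := H9.finrank_add_finrank_perp hf L
  rw [l3, hd] at h1
  set χ := ((toLin' t).restrict l2).charpoly
  have hm : χ.Monic := LinearMap.charpoly_monic _
  have h2 : ∀ w ∈ L, aeval t χ *ᵥ w = 0 := fun w hw => by
    have := aeval_restrict_coe l2 χ ⟨_, hw⟩
    rw [LinearMap.aeval_self_charpoly] at this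
    change _ = aeval (toLinAlgEquiv' t) χ w at this
    rw [aeval_algHom_apply] at this
    exact this.symm
  have h4 : ∀ c, χ.eval c ≠ 0 := fun c hc => by
    obtain ⟨v, hv⟩ := ((Module.End.hasEigenvalue_iff_isRoot_charpoly _ c).2 hc).exists_hasEigenvector
    exact hv.2 (Subtype.ext (h v c (congrArg Subtype.val hv.apply_eq_smul)))
  refine exists_root_poly (hm.mul hm) ?_ hP fun Q hQ _ hdv => ?_
  · refine ext_of_mulVec_single fun i => ?_
    rw [map_mul, ← mulVec_mulVec, zero_mulVec]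
    refine h2 _ (l3 ▸ fun y hy => ?_)
    rw [sa_move hf (adj_aeval hf ht χ), h2 y hy, hf.zero_right]
  · obtain ⟨c1, c2, c3⟩ := deg_cases hm h4 hQ ((hQ.prime.dvd_or_dvd hdv).elim id id)
    rw [LinearMap.charpoly_natDegree] at c2 c3
    rw [hP3, show Q.natDegree = 3 by omega]

theorem indep_pair (hS : 𝐀 S = S) {v w : ι → F} (h : f (S *ᵥ v) w ≠ 0) :
    LinearIndependent F fun k => S *ᵥ ![v, w] k := by
  refine Fintype.linearIndependent_iff.2 fun a ha => ?_
  simp only [Fin.sum_univ_two, cons_val_zero, cons_val_one] at ha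
  have e1 := congrArg (f · w) ha
  have e2 := congrArg (f v ·) ha
  simp only [hf.add_left, hf.smul_left, hf.add_right, hf.smul_right, sa_alt h3 hf hS, hf.zero_left,
    hf.zero_right, ← sa_move hf hS, mul_zero, add_zero, zero_add, mul_eq_zero, h, or_false,
    RingEquiv.refl_apply] at e1 e2
  intro i
  fin_cases i
  exacts [e1, e2]

theorem sa_zero (hS : 𝐀 S = S) {m : Matrix ι ι F} (hm : S * m = 0) {v w : ι → F}
    (h : f (S *ᵥ v) w = 0) (hx : ∀ x, ∃ y, ∃ a : Fin 2 → F, x = m *ᵥ y + ∑ k, a k • ![v, w] k) :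
    S = 0 := by
  have h1 : ∀ x y, f (S *ᵥ x) (m *ᵥ y) = 0 := fun x y => by
    rw [sa_move hf hS, mulVec_mulVec, hm, zero_mulVec, hf.zero_right]
  have h2 : f (S *ᵥ w) v = 0 := by rw [sa_move hf hS, skew hf, h, neg_zero]
  refine ext_of_mulVec_single fun i => ?_
  obtain ⟨x, a, e⟩ := hx (Pi.single i 1)
  rw [e, zero_mulVec]
  refine hf.eq_zero_of_left fun y => ?_
  obtain ⟨y, b, rfl⟩ := hx y
  simp [mulVec_add, mulVec_smul, hm, hf.add_left, hf.smul_left, hf.add_right, hf.smul_right, h, h1,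
    h2, sa_alt h3 hf hS]

theorem pol_scalar (hg : 𝐀 g * g = 1) (hS : 𝐀 S = S) (h1 : g * S = S * g) (h0 : S ≠ 0) {τ : F}
    (h2 : S * (g + 𝐀 g - τ • 1) = 0) (h : ∀ v, f (S *ᵥ v) (g *ᵥ v) = 0) :
    S * (g - (-τ) • 1) = 0 ∧ -τ * -τ = 1 := by
  have hg' := mul_eq_one_comm.1 hg
  have e1 : S * g = 𝐀 g * S := ext_of_mulVec_single fun i => hf.ext_left fun y => by
    have := h (Pi.single i 1 + y)
    simp only [mulVec_add, hf.add_left, hf.add_right, h] at this
    rw [← mulVec_mulVec, ← mulVec_mulVec, hf.adj_spec', sa_move hf hS, skew hf]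
    linear_combination -this
  have e2 : 𝐀 g * S = S * 𝐀 g := by
    have := congrArg (𝐀) h1
    rwa [hf.adj_mul, hf.adj_mul, hS, eq_comm] at this
  rw [mul_sub, mul_add, ← e2, ← e1, mul_smul_comm, mul_one] at h2
  have e3 : S * g = (-τ) • S := by linear_combination (norm := module) h3 • (S * g) - h2
  refine ⟨by rw [mul_sub, e3, mul_smul_comm, mul_one, sub_self], smul_left_injective F h0 ?_⟩
  have : S * g * 𝐀 g = S := by rw [mul_assoc, hg', mul_one]
  rw [e3, smul_mul_assoc, ← e2, ← e1, e3, smul_smul] at this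
  simpa using this

theorem plane_of_nd (hd : Fintype.card ι = 6) {T : End F (ι → F)} (hT : Iso f T)
    {U : Submodule F (ι → F)} (h1 : Nd f U) (h2 : TInv T U) (h0 : U ≠ ⊥) (h4 : U ≠ ⊤) :
    ∃ W : Submodule F (ι → F), (finrank F W = 2 ∧ Nd f W) ∧ TInv T W := by
  obtain ⟨k, hk⟩ := h1.even_alt hf (alt3 h3 hf)
  have a := finrank_pos_of_ne_bot h0
  have b := Submodule.finrank_lt h4
  have c := H9.finrank_add_finrank_perp hf U
  rw [finrank_fun'] at b
  by_cases h : finrank F U = 2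
  · exact ⟨U, ⟨h, h1⟩, h2⟩
  · exact ⟨_, ⟨by omega, h1.perp hf⟩, hT.tInv_perp hf h2⟩

theorem as_frame [Nontrivial ι] (hJ : 𝐀 J = J) {c : F} (hc : ∀ x : F, x ^ 3 - x ≠ c)
    (h : J ^ 3 - J = c • 1) : ∃ u : Fin 3 ⊕ Fin 3 → ι → F,
      (∀ i j, f (u i) (u j) = fromBlocks 0 !![0, 0, 1; 0, 1, 0; 1, 0, 1]
        !![0, 0, -1; 0, -1, 0; -1, 0, -1] 0 i j) ∧ ∀ s : Fin 3 → Fin 3 ⊕ Fin 3,
          (s = Sum.inl ∨ s = Sum.inr) → J *ᵥ u (s 0) = u (s 1) ∧ J *ᵥ u (s 1) = u (s 2) ∧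
            J *ᵥ u (s 2) = u (s 1) + c • u (s 0) := by
  obtain ⟨v, hv⟩ := exists_ne (0 : ι → F)
  have j3 : ∀ x, J *ᵥ J *ᵥ J *ᵥ x = J *ᵥ x + c • x := fun x => by
    rw [mulVec_mulVec, mulVec_mulVec, ← pow_three', sub_eq_iff_eq_add'.1 h, add_mulVec,
      smul_mulVec, one_mulVec]
  obtain ⟨w, w1, w2⟩ : ∃ w ∈ H9.perp hf (span F {v, J *ᵥ v}), f (J *ᵥ J *ᵥ v) w ≠ 0 := by
    by_contra hn
    push Not at hn
    obtain ⟨a, b, e⟩ := mem_span_pair.1
      (H9.perp_perp hf (span F {v, J *ᵥ v}) ▸ (H9.mem_perp hf).2 hn : J *ᵥ J *ᵥ v ∈ _)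
    have hdeg : (X ^ 2 - C b * X - C a : F[X]).natDegree = 2 := by compute_degree!
    obtain ⟨r, s, hrs⟩ := ((as_irr hc).coprime_iff_not_dvd (n := X ^ 2 - C b * X - C a)).2 fun hn => by
      have := natDegree_le_of_dvd hn (by rintro h0; simp [h0] at hdeg)
      rw [as_deg, hdeg] at this; omega
    have := congrArg (fun R => aeval J R *ᵥ v) hrs
    simp only [map_add, map_mul (aeval J) r, map_mul (aeval J) s, as_aeval.2 h, mul_zero, zero_add,
      map_one, one_mulVec, ← mulVec_mulVec] at this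
    refine hv (this.symm.trans ?_)
    simp [Algebra.algebraMap_eq_smul_one, sq, sub_mulVec, ← mulVec_mulVec, ← e, smul_mulVec]
  obtain ⟨w, w0, w1, w2⟩ : ∃ w, f v w = 0 ∧ f (J *ᵥ v) w = 0 ∧ f (J *ᵥ J *ᵥ v) w = 1 :=
    ⟨(f (J *ᵥ J *ᵥ v) w)⁻¹ • w, by
      simp [hf.smul_right, (H9.mem_perp' hf).1 w1 v (subset_span (by simp)), inv_mul_cancel₀ w2,
        (H9.mem_perp' hf).1 w1 (J *ᵥ v) (subset_span (by simp)), -mulVec_mulVec]⟩
  have a0 := alt3 h3 hf
  have a1 := sa_alt h3 hf hJ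
  have a2 : ∀ x, f (J *ᵥ J *ᵥ x) x = 0 := fun x => by rw [sa_move hf hJ, a0]
  have b0 : f w v = 0 := by rw [skew hf, w0, neg_zero]
  have b1 : f (J *ᵥ w) v = 0 := by rw [sa_move hf hJ, skew hf, w1, neg_zero]
  have b2 : f (J *ᵥ J *ᵥ w) v = -1 := by rw [sa_move hf hJ, sa_move hf hJ, skew hf, w2]
  refine ⟨Sum.elim ![v, J *ᵥ v, J *ᵥ J *ᵥ v] ![w, J *ᵥ w, J *ᵥ J *ᵥ w], ?_, ?_⟩
  · rintro (i | i) (j | j) <;> fin_cases i <;> fin_cases j <;>
      simp [← sa_move hf hJ, -mulVec_mulVec, j3, mulVec_add, mulVec_smul, hf.add_left, hf.smul_left,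
        a0, a1, a2, w0, w1, w2, b0, b1, b2]
  · rintro _ (rfl | rfl) <;> simp [-mulVec_mulVec, j3]

end Cfsg.Agent.H68
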