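import Cfsg.Agent.H68.CovSp
import Cfsg.Agent.H67.SpSpec

/-! Normal 2-covering of `Sp_6(3^a)`. -/

set_option autoImplicit false
set_option backward.isDefEq.respectTransparency false

namespace Cfsg.Agent.H68

open Polynomial Module Matrix Submodule Cfsg.Agent.H98 Cfsg.Agent.H99

universe u
variable {F : Type u} [Field F] {ι : Type} [Fintype ι] [DecidableEq ι]
  {f : (ι → F) → (ι → F) → F} {g t S N J : Matrix ι ι F}

local notation "𝐀" => adj (RingEquiv.refl F) f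

variable (h3 : (3 : F) = 0) (hf : IsSesq (RingEquiv.refl F) (-1) f) (hd : Fintype.card ι = 6)
  (hg : adj (RingEquiv.refl F) f g * g = 1) {τ : F}
  (hN : N = g + adj (RingEquiv.refl F) f g - τ • 1)
include hf hg hN

theorem N_facts : 𝐀 N = N ∧ g * N = N * g ∧ g * N = g * g - τ • g + 1 := by
  have hg' := mul_eq_one_comm.1 hg
  refine ⟨by rw [hN, hf.adj_sub, hf.adj_add, hf.adj_adj, hf.adj_smul, hf.adj_one, add_comm]; rfl,
    by simp [hN, mul_sub, sub_mul, mul_add, add_mul, hg, hg'], ?_⟩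
  simp only [hN, mul_sub, mul_add, hg', mul_smul_comm, mul_one]
  abel

include h3 hd

theorem sp6_cyclic (h0 : N ^ 3 = 0) {v : ι → F} (hv : f ((N * N) *ᵥ v) (g *ᵥ v) ≠ 0) (c : F) :
    ∃ J, (𝐀 J = J ∧ J ^ 3 - J = c • 1) ∧ g * J = (J + 1) * g := by
  have : Nonempty ι := Fintype.card_pos_iff.1 (by omega)
  obtain ⟨n1, n2, n3⟩ := N_facts hf hg hN
  have hg' := mul_eq_one_comm.1 hg
  have g6 : g ^ 6 = τ ^ 3 • g ^ 3 - 1 := by
    have e : (g * N) ^ 3 = 0 := by rw [Commute.mul_pow n2, h0, mul_zero]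
    have e2 : aeval g ((X ^ 2 - C τ * X + 1) ^ 3 : F[X]) = 0 := by
      simpa [Algebra.algebraMap_eq_smul_one, sq, n3] using e
    have e3 : ((X ^ 2 - C τ * X + 1) ^ 3 : F[X]) = X ^ 6 - C τ ^ 3 * X ^ 3 + 1 := by
      have : (3 : F[X]) = 0 := by rw [← map_ofNat C 3, h3, map_zero]
      linear_combination (-C τ * X ^ 5 + (C τ ^ 2 + 1) * X ^ 4 - 2 * C τ * X ^ 3 +
        (C τ ^ 2 + 1) * X ^ 2 - C τ * X) * this
    rw [e3] at e2
    simp only [map_add, map_sub, map_mul, map_pow, aeval_X, aeval_C, map_one,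
      Algebra.algebraMap_eq_smul_one, _root_.smul_pow, one_pow, smul_mul_assoc, one_mul] at e2
    linear_combination (norm := module) e2
  let e : Fin 3 × Fin 2 → ℕ := fun a => a.1 + 3 * a.2
  have h1 : ∀ k : ℕ, g *ᵥ g ^ k *ᵥ v = g ^ (k + 1) *ᵥ v := fun k => by
    rw [mulVec_mulVec, pow_succ']
  have h2 : ∀ k : Fin 2, g *ᵥ g ^ e (2, k) *ᵥ v ∈
      span F (Set.range fun k => g ^ e (0, k) *ᵥ v) := fun k => by
    rw [h1]
    fin_cases k
    · exact subset_span ⟨1, rfl⟩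
    · change g ^ 6 *ᵥ v ∈ _
      rw [g6, sub_mulVec, smul_mulVec, ← pow_zero g]
      exact sub_mem (smul_mem _ _ (subset_span ⟨1, rfl⟩)) (subset_span ⟨0, rfl⟩)
  have hb : span F (Set.range fun a => g ^ e a *ᵥ v) = ⊤ := by
    have hU : TInv (toLin' g) (span F (Set.range fun a => g ^ e a *ᵥ v)) := span_inv (by
      rintro ⟨i, k⟩
      fin_cases i
      · exact subset_span ⟨(1, k), by rw [h1]; simp only [e]; congr 2; simp; omega⟩
      · exact subset_span ⟨(2, k), by rw [h1]; simp only [e]; congr 2; simp; omega⟩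
      · exact span_mono (by rintro _ ⟨k, rfl⟩; exact ⟨(0, k), rfl⟩) (h2 k))
    refine top_of_nil h0 ![v, g *ᵥ v] (by
      simpa only [mulVec_mulVec] using indep_pair h3 hf (by rw [hf.adj_mul, n1]) hv)
      (by simp [hd]) (fun x hx => ?_) fun k => ?_
    · obtain ⟨y, hy, rfl⟩ := (hU.map_eq (((H67.iso_iff_adj hf).2 hg).inj hf)).ge hx
      rw [toLin'_apply, mulVec_mulVec, ← n2, n3, add_mulVec, sub_mulVec, ← mulVec_mulVec,
        smul_mulVec, one_mulVec]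
      exact add_mem (sub_mem (hU _ (hU _ hy)) (smul_mem _ _ (hU _ hy))) hy
    · fin_cases k
      · exact subset_span ⟨(0, 0), by simp [e]⟩
      · exact subset_span ⟨(1, 0), by simp [e]⟩
  obtain ⟨J₁, hJ⟩ := exists_J1 (g := g) h3 _ hb (by simp [hd])
    (fun k => by rw [h1]; congr 2; simp [e]; omega) (fun k => by rw [h1]; congr 2; simp [e]; omega) h2
  refine exists_J_of h3 hf hg hJ (τ := τ) rfl (hN ▸ h0) (fun z J z1 z2 z3 z4 => ?_) rfl
  obtain ⟨p, p1, p2⟩ := cyc_comm e hb (by simp [hd]) z2 z3 z4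
  have q1 := p2 (1, 0)
  have q2 := p2 (2, 0)
  have q3 := p2 (1, 1)
  have q4 := p2 (2, 1)
  have h2' := two_ne_of_three h3
  have h4 : (4 : F) ≠ 0 := fun h => one_ne_zero (α := F) (by linear_combination h - h3)
  have h5 : (5 : F) ≠ 0 := fun h => h2' (by linear_combination h - h3)
  simp [e, h2', h4, h5] at q1 q2 q3 q4
  simp [Fintype.sum_prod_type, Fin.sum_univ_three, e, q1, q2, q3, q4] at p1
  by_cases hp : p (0, 1) = 0
  · exact ⟨p (0, 0), by simp [p1, hp]⟩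
  rw [p1, hf.adj_add, hf.adj_smul, hf.adj_smul, hf.adj_one, hf.adj_pow, RingEquiv.refl_apply,
    RingEquiv.refl_apply, add_right_inj] at z1
  have z5 : g ^ 3 * 𝐀 g ^ 3 = g ^ 3 * g ^ 3 := by rw [smul_right_injective _ hp z1]
  rw [← Commute.mul_pow (hg'.trans hg.symm), hg', one_pow, ← pow_add, g6] at z5
  have hτ : τ ^ 3 ≠ 0 := fun h => h2' (smul_left_injective F (one_ne_zero (α := Matrix ι ι F)) (by
    rw [h] at z5
    linear_combination (norm := module) z5))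
  refine ⟨p (0, 0) + p (0, 1) * (τ ^ 3)⁻¹ * 2, ?_⟩
  rw [p1, ← inv_smul_smul₀ hτ (g ^ 3), ← sub_add_cancel (τ ^ 3 • g ^ 3) 1, ← z5]
  module

theorem sp6_W3 (h0 : N * N = 0) (h1 : N ≠ 0) (h : ∀ v, f (N *ᵥ v) (g *ᵥ v) = 0) (c : F) :
    ∃ J, (𝐀 J = J ∧ J ^ 3 - J = c • 1) ∧ g * J = (J + 1) * g := by
  have : Nonempty ι := Fintype.card_pos_iff.1 (by omega)
  obtain ⟨n1, n2, n3⟩ := N_facts hf hg hN
  obtain ⟨m1, hl⟩ := pol_scalar h3 hf hg n1 n2 h1 (τ := τ) (by rw [← hN, h0]) h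
  set m := g - (-τ) • (1 : Matrix ι ι F) with hm
  have m2 : m * m = (-τ) • N := by
    have : m * m = g * N := by
      simp only [hm, n3, sub_mul, mul_sub, smul_mul_assoc, mul_smul_comm, one_mul, mul_one]
      linear_combination (norm := module) h3 • τ • g + hl • (1 : Matrix ι ι F)
    rw [this, n2, ← sub_eq_zero, ← m1, hm, mul_sub, mul_smul_comm, mul_one]
  have m3 : m ^ 3 = 0 := by rw [pow_three', m2, smul_mul_assoc, m1, smul_zero]
  have m4 : 𝐀 (m * m) = m * m := by rw [m2, hf.adj_smul, n1]; rfl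
  obtain ⟨v, w, hw⟩ : ∃ v w, f ((m * m) *ᵥ v) w ≠ 0 := by
    by_contra hn
    push Not at hn
    refine smul_ne_zero (left_ne_zero_of_mul_eq_one hl) h1 (m2.symm.trans
      (ext_of_mulVec_single fun i => ?_))
    rw [hf.eq_zero_of_left (hn _), zero_mulVec]
  have hi : LinearIndependent F fun k => m *ᵥ m *ᵥ ![v, w] k := by
    simpa only [mulVec_mulVec] using indep_pair h3 hf m4 hw
  refine exists_J_unip h3 hf hg hl m3 _ hi (by simp [hd]) (fun z z1 z2 => ?_) rfl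
  set a := f ((m * m * z) *ᵥ v) w / f ((m * m) *ᵥ v) w
  have z3 : Commute m (z - a • 1) := ((Commute.sub_left z2 ((Commute.one_left z).smul_left _)).sub_right
    ((Commute.one_right m).smul_right a))
  refine ⟨a, sa_zero h3 hf (m := m) ?_ ?_ ?_ (decomp_of_nil m3 _ hi (by simp [hd]))⟩
  · rw [hf.adj_mul, m4, hf.adj_sub, z1, hf.adj_smul, hf.adj_one]
    exact (z3.mul_left z3).eq.symm
  · rw [mul_assoc, ← z3.eq, ← mul_assoc, ← pow_three', m3, zero_mul]
  · rw [mul_sub, mul_smul_comm, mul_one, sub_mulVec, smul_mulVec, hf.sub_left, hf.smul_left,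
      div_mul_cancel₀ _ hw, sub_self]

theorem sp6_exists_cyc (h0 : N ^ 3 = 0) (h1 : N * N ≠ 0) :
    ∃ v, f ((N * N) *ᵥ v) (g *ᵥ v) ≠ 0 := by
  by_contra h
  push Not at h
  obtain ⟨n1, n2, n3⟩ := N_facts hf hg hN
  have n4 : 𝐀 (N * N) = N * N := by rw [hf.adj_mul, n1]
  obtain ⟨m1, hl⟩ := pol_scalar h3 hf hg n4 (Commute.mul_right n2 n2) h1
    (by rw [← hN, ← pow_three', h0]) h
  set m := g - (-τ) • (1 : Matrix ι ι F) with hm
  have m2 : m * m = g * N := by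
    simp only [hm, n3, sub_mul, mul_sub, smul_mul_assoc, mul_smul_comm, one_mul, mul_one]
    linear_combination (norm := module) h3 • τ • g + hl • (1 : Matrix ι ι F)
  have m3 : Commute m N := Commute.sub_left n2 ((Commute.one_left N).smul_left _)
  obtain ⟨v, w, hw⟩ : ∃ v w, f ((N * N) *ᵥ v) w ≠ 0 := by
    by_contra hn
    push Not at hn
    exact h1 (ext_of_mulVec_single fun i => by rw [hf.eq_zero_of_left (hn _), zero_mulVec])
  have hi := indep_pair h3 hf n4 hw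
  refine h1 (ext_of_mulVec_single fun i => ?_)
  obtain ⟨y, a, e⟩ := decomp_of_nil h0 ![v, w] (by simpa only [mulVec_mulVec] using hi)
    (by simp [hd]) (m *ᵥ Pi.single i 1)
  have e1 := congrArg ((N * N) *ᵥ ·) e
  simp only [mulVec_add, mulVec_mulVec, m1, ← pow_three', h0, zero_mulVec, zero_add, mulVec_sum,
    mulVec_smul] at e1
  simp only [Fintype.linearIndependent_iff.1 hi a e1.symm, zero_smul, Finset.sum_const_zero,
    add_zero] at e
  have e2 : N * N = 𝐀 g * N * m * m := by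
    rw [mul_assoc _ m, m2, mul_assoc, ← mul_assoc N, ← n2, ← mul_assoc, ← mul_assoc, hg, one_mul]
  rw [e2, ← mulVec_mulVec, e, mulVec_mulVec, mul_assoc _ m, m3.eq, mul_assoc, ← mul_assoc N, m1,
    mul_zero, zero_mulVec, zero_mulVec]

theorem sp6_plane [Fintype F] (h0 : N * N = 0)
    (h : N = 0 ∨ ∃ v, f (N *ᵥ v) (g *ᵥ v) ≠ 0) :
    ∃ W : Submodule F (ι → F), (finrank F W = 2 ∧ Nd f W) ∧ TInv (toLin' g) W := by
  have : Nonempty ι := Fintype.card_pos_iff.1 (by omega)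
  obtain ⟨n1, n2, n3⟩ := N_facts hf hg hN
  have a0 := alt3 h3 hf
  have n4 : ∀ v, g *ᵥ g *ᵥ v = N *ᵥ g *ᵥ v + τ • g *ᵥ v - v := fun v => by
    rw [mulVec_mulVec v N, ← n2, n3, add_mulVec, sub_mulVec, ← mulVec_mulVec, smul_mulVec,
      one_mulVec]
    abel
  rcases h with rfl | ⟨v, hv⟩
  · by_cases h : ∃ v, f v (g *ᵥ v) ≠ 0
    · obtain ⟨v, hv⟩ := h
      refine ⟨_, (nd_pair hf (a0 _) (a0 _) hv).symm, tInv_span_pair (subset_span (by simp))
        (mem_span_pair.2 ⟨-1, τ, ?_⟩)⟩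
      rw [toLin'_apply, n4, zero_mulVec]
      module
    · push Not at h
      obtain ⟨m1, -⟩ := pol_scalar h3 hf hg hf.adj_one (by simp) one_ne_zero
        (by rw [← hN, mul_zero]) (by simpa using h)
      obtain ⟨A, -, a1, a2⟩ := alt_exists_nd hf a0 (nd_top hf) even_two (by simp [hd])
      refine ⟨A, ⟨a2, a1⟩, fun x hx => ?_⟩
      rw [one_mul, sub_eq_zero] at m1
      rw [toLin'_apply, m1, smul_mulVec, one_mulVec]
      exact smul_mem _ _ hx
  have n5 : ∀ x, N *ᵥ N *ᵥ x = 0 := fun x => by rw [mulVec_mulVec, h0, zero_mulVec]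
  have n6 : ∀ x, g *ᵥ N *ᵥ x = N *ᵥ g *ᵥ x := fun x => by rw [mulVec_mulVec, n2, mulVec_mulVec]
  let b : Fin 4 → ι → F := ![v, g *ᵥ v, N *ᵥ v, N *ᵥ g *ᵥ v]
  have hb : ∀ i, b i ∈ span F (Set.range b) := fun i => subset_span ⟨i, rfl⟩
  refine plane_of_nd h3 hf hd ((H67.iso_iff_adj hf).2 hg) (U := span F (Set.range b))
    (nd_of_eq_zero fun x hx h => ?_) (span_inv fun i => ?_) ((Submodule.ne_bot_iff _).2
      ⟨v, hb 0, by rintro rfl; simp [hf.zero_right] at hv⟩) fun e => ?_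
  · obtain ⟨a, rfl⟩ := (mem_span_range_iff_exists_fun F).1 hx
    have e0 := h _ (hb 0)
    have e1 := h _ (hb 1)
    have e2 := h _ (hb 2)
    have e3 := h _ (hb 3)
    have s1 : f (N *ᵥ g *ᵥ v) v = -f (N *ᵥ v) (g *ᵥ v) := by rw [sa_move hf n1, skew hf]
    simp [Fin.sum_univ_four, b, hf.add_left, hf.smul_left, ← sa_move hf n1, n5, hf.zero_left, s1,
      hv, sa_alt h3 hf n1, a0, -mulVec_mulVec] at e0 e1 e2 e3
    simp [e2, e3, hv] at e0 e1
    simp [Fin.sum_univ_four, e0, e1, e2, e3]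
  · fin_cases i
    · exact hb 1
    · exact n4 v ▸ sub_mem (add_mem (hb 3) (smul_mem _ _ (hb 1))) (hb 0)
    · exact n6 v ▸ hb 3
    · change g *ᵥ N *ᵥ g *ᵥ v ∈ _
      rw [n6, n4, mulVec_sub, mulVec_add, n5, zero_add, mulVec_smul]
      exact sub_mem (smul_mem _ _ (hb 3)) (hb 2)
  · have := finrank_range_le_card (R := F) b
    rw [Set.finrank, e, finrank_top, finrank_fun', hd, Fintype.card_fin] at this
    omega

omit hN in
theorem sp6_cases [Fintype F] {c : F} (hc : ∀ x : F, x ^ 3 - x ≠ c) :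
    (∃ W : Submodule F (ι → F), (finrank F W = 2 ∧ Nd f W) ∧ TInv (toLin' g) W) ∨
      ∃ J, (𝐀 J = J ∧ J ^ 3 - J = c • 1) ∧ ∃ e ∈ (⊤ : AddSubgroup F), g * J = (J + e • 1) * g := by
  refine or_iff_not_imp_left.2 fun n0 => ?_
  by_cases h : ∀ v (τ : F), (g + 𝐀 g) *ᵥ v = τ • v → v = 0
  · obtain ⟨n1, n2, -⟩ := N_facts hf hg (τ := 0) rfl
    rw [zero_smul, sub_zero] at n1 n2
    obtain ⟨R, hR⟩ := sa_noeig h3 hf hd n1 h (as_irr hc) (as_deg c)
    exact ⟨_, ⟨adj_aeval hf n1 R, as_aeval.1 hR⟩, 0, trivial, by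
      rw [zero_smul, add_zero, comm_aeval n2]⟩
  push Not at h
  obtain ⟨v, τ, hv, h0⟩ := h
  obtain ⟨N, hN⟩ : ∃ N, N = g + 𝐀 g - τ • 1 := ⟨_, rfl⟩
  obtain ⟨n1, n2, -⟩ := N_facts hf hg hN
  have n3 : N ^ 3 = 0 := by
    refine sa_nil h3 hf hd n1 ⟨6, ?_⟩
    have n4 : 𝐀 (N ^ 6) = N ^ 6 := by rw [hf.adj_pow, n1]
    by_contra n5
    refine n0 (plane_of_nd h3 hf hd ((H67.iso_iff_adj hf).2 hg) (U := LinearMap.ker (toLin' (N ^ 6)))
      (nd_of_eq_zero fun x hx h => ?_) (TInv.ker ?_) ((Submodule.ne_bot_iff _).2 ⟨v, ?_, h0⟩)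
      fun e => n5 (toLin'.injective (by rw [LinearMap.ker_eq_top.1 e, map_zero])))
    · obtain ⟨y, rfl⟩ : x ∈ LinearMap.range (toLin' (N ^ 6)) := perp_ker_sa hf n4 ▸ h
      have e1 := Module.End.ker_pow_eq_ker_pow_finrank_of_le (f := toLin' N) (m := 6 + 6)
        (by simp [hd])
      rw [finrank_fun', hd] at e1
      rw [toLin'_pow] at hx ⊢
      rw [← LinearMap.mem_ker, ← e1, pow_add]
      exact hx
    · rw [Module.End.mul_eq_comp, Module.End.mul_eq_comp, ← toLin'_mul, ← toLin'_mul,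
        (Commute.pow_right n2 6).eq]
    · rw [LinearMap.mem_ker, toLin'_apply, pow_succ, ← mulVec_mulVec, hN, sub_mulVec, hv,
        smul_mulVec, one_mulVec, sub_self, mulVec_zero]
  suffices ∃ J, (𝐀 J = J ∧ J ^ 3 - J = c • 1) ∧ g * J = (J + 1) * g from
    this.imp fun J ⟨j1, j2⟩ => ⟨j1, 1, trivial, by rw [one_smul, j2]⟩
  by_cases n4 : N * N = 0
  · have := mt (sp6_plane h3 hf hd hg hN n4) n0
    push Not at this
    exact sp6_W3 h3 hf hd hg hN n4 this.1 this.2 c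
  · obtain ⟨v, hv⟩ := sp6_exists_cyc h3 hf hd hg hN n3 n4
    exact sp6_cyclic h3 hf hd hg hN n3 hv c

omit hf hg hN hd in
theorem cov_Sp6 [Fintype F] : Cov2 (symplecticGroup (Fin 3) F) := by
  have hf := H9.isSesq_symp (m := 3) (F := F)
  have a0 := alt3 h3 hf
  obtain ⟨c, -, c2⟩ := exists_as_const (σ := RingEquiv.refl F) h3 fun _ => rfl
  have := H10.nontrivial_sp (F := F) (m := 3) (by omega)
  have : Nontrivial (Fin 3 ⊕ Fin 3) := ⟨Sum.inl 0, Sum.inr 0, by simp⟩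
  refine cov2_of_half (half_sub (H67.spHom 3 F) (fun W => finrank F W = 2 ∧ Nd (sympForm 3 F) W)
    (fun W W' h h' => ?_) ?_) (half_J (H67.spHom 3 F) ⊤
    (fun J => adj (RingEquiv.refl F) (sympForm 3 F) J = J ∧ J ^ 3 - J = c • 1)
    (fun J J' h h' => ?_) fun J h => ?_)
    fun g => sp6_cases h3 hf (by simp) ((H67.iso_iff_adj hf).1 (sp_iso g)) c2
  · obtain ⟨a, a1, a2⟩ := ws_sp.witt_map (ism_alt hf a0 h.2 h'.2 (h.1.trans h'.1.symm))
    obtain ⟨g, hg⟩ := exists_sp (IG.iso a1)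
    exact ⟨g, hg ▸ a2⟩
  · obtain ⟨A, -, a1, a2⟩ := alt_exists_nd hf a0 (nd_top hf) even_two (by simp)
    have := H9.finrank_add_finrank_perp hf A
    obtain ⟨B, b0, b1, b2⟩ := alt_exists_nd hf a0 (a1.perp hf) even_two
      (by simp at this; omega)
    refine ⟨A, B, ⟨a2, a1⟩, ⟨b2, b1⟩, fun e => ?_⟩
    rw [← e] at b0
    rw [a1.eq_bot b0, finrank_bot] at a2
    omega
  · obtain ⟨u, u1, u2⟩ := as_frame h3 hf h.1 c2 h.2
    obtain ⟨v, v1, v2⟩ := as_frame h3 hf h'.1 c2 h'.2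
    have key : ∀ u : Fin 3 ⊕ Fin 3 → Fin 3 ⊕ Fin 3 → F, (∀ i j, sympForm 3 F (u i) (u j) =
        fromBlocks 0 !![0, 0, 1; 0, 1, 0; 1, 0, 1] !![0, 0, -1; 0, -1, 0; -1, 0, -1] 0 i j) →
        LinearIndependent F u := fun u hu => Fintype.linearIndependent_iff.2 fun a ha => by
      have e := fun j => congrArg (sympForm 3 F · (u j)) ha
      simp only [hf.sum_left, hf.smul_left, hu, hf.zero_left] at e
      simp [Fin.forall_fin_succ, Fin.sum_univ_three] at e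
      obtain ⟨⟨e1, e2, e3⟩, e4, e5, e6⟩ := e
      rw [e1, neg_zero, add_zero, neg_eq_zero] at e3
      rw [e4, add_zero] at e6
      rintro (i | i) <;> fin_cases i <;> assumption
    obtain ⟨A, hA⟩ := H27.sp_witt_family (key u u1) (key v v1) fun i j => (u1 i j).trans (v1 i j).symm
    refine ⟨A, ext_span ((key u u1).span_eq_top_of_card_eq_finrank' (by simp)) fun i => ?_⟩
    change (A.1 * J) *ᵥ _ = (J' * A.1) *ᵥ _
    rw [← mulVec_mulVec, ← mulVec_mulVec, hA]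
    obtain ⟨a1, a2, a3⟩ := u2 _ (Or.inl rfl)
    obtain ⟨a4, a5, a6⟩ := u2 _ (Or.inr rfl)
    obtain ⟨b1, b2, b3⟩ := v2 _ (Or.inl rfl)
    obtain ⟨b4, b5, b6⟩ := v2 _ (Or.inr rfl)
    rcases i with i | i <;> fin_cases i <;>
      simp [a1, a2, a3, a4, a5, a6, b1, b2, b3, b4, b5, b6, hA, mulVec_add, mulVec_smul]
  · obtain ⟨v, hv⟩ := exists_ne (0 : Fin 3 ⊕ Fin 3 → F)
    obtain ⟨x, hx⟩ : ∃ x, sympForm 3 F x v ≠ 0 := by
      by_contra hn
      push Not at hn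
      exact hv (hf.eq_zero_of_right hn)
    exact ⟨H27.spT v 1, fun t _ => not_norm_of_tv h3 (x := x) (H27.spT_mulVec v 1) (by simp [a0]) hv
      (by simpa using hx) c2 h.2 t⟩

end Cfsg.Agent.H68
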