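import Cfsg.Agent.H68.CovSL
import Cfsg.Agent.H99.FmPol
import Cfsg.Agent.H67.SUConj
import Cfsg.Agent.H10.SUHeis
import Cfsg.Agent.H10.SUSimple

/-! Normal 2-coverings of unitary groups: `SU_4`. -/

set_option autoImplicit false
set_option backward.isDefEq.respectTransparency false

namespace Cfsg.Agent.H68

open Polynomial Module Matrix Submodule Cfsg.Agent.H98 Cfsg.Agent.H99 Cfsg.Agent.H10

universe u
variable {ι : Type} [Fintype ι] [DecidableEq ι] {F : Type u} [Field F] {σ : F ≃+* F} {ε : F}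
  {f : (ι → F) → (ι → F) → F} {T : End F (ι → F)}

theorem half_sub {G : Type*} [Group G] [Nontrivial G] (ρ : G →* Matrix ι ι F)
    (S : Submodule F (ι → F) → Prop)
    (htr : ∀ W W', S W → S W' → ∃ g, W.map (toLin' (ρ g)) = W')
    (hne : ∃ y z, S y ∧ S z ∧ y ≠ z) : Half G fun g => ∃ W, S W ∧ TInv (toLin' (ρ g)) W := by
  refine (half_of_act2 (fun g (W : Submodule F (ι → F)) => W.map (toLin' (ρ g))) Eq eq_equivalence
    (fun g h W => by rw [map_mul, toLin'_mul, Submodule.map_comp]) (fun W => by simp)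
    (fun _ _ _ e => e ▸ rfl) S htr hne).mono fun g ⟨W, h1, h2⟩ => ⟨W, h1, h2.map_eq ?_⟩
  refine Function.LeftInverse.injective (g := toLin' (ρ g⁻¹)) fun v => ?_
  rw [← LinearMap.comp_apply, ← toLin'_mul, ← map_mul, inv_mul_cancel, map_one, toLin'_one,
    LinearMap.id_apply]

theorem tInv_line {v : ι → F} {c : F} (h : T v = c • v) : TInv T (span F {v}) := fun w hw => by
  obtain ⟨a, rfl⟩ := mem_span_singleton.1 hw
  rw [map_smul, h]
  exact smul_mem _ _ (smul_mem _ _ (mem_span_singleton_self v))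

theorem eig_of_finrank_one {W : Submodule F (ι → F)} (hW : TInv T W) (h : finrank F W = 1) :
    ∃ v ∈ W, v ≠ 0 ∧ ∃ c : F, T v = c • v := by
  obtain ⟨v, hv, hv0⟩ := W.ne_bot_iff.1 (ne_bot_of_pos (W := W) (by omega))
  have e : span F {v} = W := Submodule.eq_of_le_of_finrank_eq
    ((span_singleton_le_iff_mem _ _).2 hv) (by rw [finrank_span_singleton hv0, h])
  obtain ⟨c, hc⟩ := mem_span_singleton.1 (e ▸ hW v hv : T v ∈ span F {v})
  exact ⟨v, hv, hv0, c, hc.symm⟩

theorem pair_indep {v w : ι → F} (hv : v ≠ 0) (hw : w ∉ span F {v}) (a b : F)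
    (h : a • v + b • w = 0) : a = 0 ∧ b = 0 := by
  have hb : b = 0 := by
    by_contra hb
    refine hw (mem_span_singleton.2 ⟨-(b⁻¹ * a), ?_⟩)
    rw [eq_comm, neg_smul, eq_neg_iff_add_eq_zero, ← smul_smul, ← inv_smul_smul₀ hb w, ← smul_add,
      add_comm, h, smul_zero]
  rw [hb, zero_smul, add_zero] at h
  exact ⟨(smul_eq_zero.1 h).resolve_right hv, hb⟩

/-- a two-dimensional invariant subspace containing `v` -/
theorem exists_second {U : Submodule F (ι → F)} (hU : TInv T U) (h : finrank F U = 2) {v : ι → F}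
    (hv : v ∈ U) (h0 : v ≠ 0) :
    ∃ w ∈ U, w ∉ span F {v} ∧ ∃ μ a : F, T w = μ • w + a • v := by
  have hle := (span_singleton_le_iff_mem _ _).2 hv
  obtain ⟨w, hw, hw'⟩ := SetLike.exists_of_lt (Submodule.lt_of_le_of_finrank_lt_finrank hle
    (by rw [finrank_span_singleton h0, h]; omega))
  have e : span F {v, w} = U := Submodule.eq_of_le_of_finrank_eq
    (span_le.2 (by rintro x (rfl | rfl) <;> assumption))
    (by rw [finrank_span_pair (pair_indep h0 hw'), h])
  obtain ⟨a, μ, e'⟩ := mem_span_pair.1 (e ▸ hU w hw : T w ∈ span F {v, w})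
  exact ⟨w, hw, hw', μ, a, by rw [← e', add_comm]⟩

theorem eig_step (hf : IsSesq σ ε f) (h : ∀ v (c : F), T v = c • v → f v v = 0) {v w : ι → F}
    {l μ a : F} (hv : T v = l • v) (h1 : f v w = 0) (h2 : f w w ≠ 0)
    (hw : T w = μ • w + a • v) : μ = l ∧ a ≠ 0 := by
  have h3 := h v l hv
  have h4 := hf.eq_zero_comm.1 h1
  refine ⟨?_, fun ha => h2 (h w μ (by rw [hw, ha, zero_smul, add_zero]))⟩
  by_contra hn
  have hd := sub_ne_zero.2 hn
  have := h (w + (a / (μ - l)) • v) μ (by
    rw [map_add, map_smul, hv, hw, smul_add, smul_smul, smul_smul, add_assoc, ← add_smul]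
    congr 2
    field_simp
    ring)
  simp only [hf.add_left, hf.add_right, hf.smul_left, hf.smul_right, h1, h3, h4] at this
  exact h2 (by simpa using this)

theorem ti_pair [Fintype F] (hf : IsSesq σ ε f) {v w : ι → F} {l μ a : F} (h0 : v ≠ 0) (hw' : w ∉ span F {v})
    (hv : T v = l • v) (h3 : f v v = 0) (h1 : f v w = 0) (h2 : f w w = 0)
    (hw : T w = μ • w + a • v) :
    ∃ W : Submodule F (ι → F), (finrank F W = 2 ∧ Ort f W W) ∧ TInv T W := by
  refine ⟨span F {v, w}, ⟨finrank_span_pair (pair_indep h0 hw'), ?_⟩, tInv_span_pair ?_ ?_⟩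
  · rw [span_insert]
    exact Ort.sup_self hf (ort_span_span hf h3) (ort_span_span hf h2) (ort_span_span hf h1)
  · exact mem_span_pair.2 ⟨l, 0, by simp [hv]⟩
  · exact mem_span_pair.2 ⟨a, μ, by rw [hw, add_comm]⟩

variable [Fintype F] {q : ℕ} [hF : Fact (Fintype.card F = q ^ 2)]

theorem not_dvd_of_even {P S : F[X]} (hP : Irreducible P) (he : Even P.natDegree)
    (hS : P ∣ X * S - 1) : ¬ P ∣ (P.map (sig F q : F →+* F)).comp S := by
  intro h
  have := Fact.mk hP
  have : Module.Finite F (AdjoinRoot P) := (AdjoinRoot.powerBasis hP.ne_zero).finite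
  have : Finite (AdjoinRoot P) := Module.finite_of_finite F
  rw [← AdjoinRoot.mk_eq_zero, ← AdjoinRoot.aeval_eq] at h hS
  rw [aeval_comp] at h
  rw [map_sub, map_mul, aeval_X, map_one, sub_eq_zero] at hS
  set α := AdjoinRoot.root P
  set β := aeval α S
  obtain ⟨τ, hτ⟩ := H67.exists_frob_q F q (AdjoinRoot P)
  have h1 : P.eval₂ (Algebra.ofId F (AdjoinRoot P)) (β ^ q) = 0 := by
    have := congrArg τ h
    rw [map_zero, aeval_def, eval₂_map, hom_eval₂, hτ] at this
    convert this using 2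
    ext a
    change _ = τ (algebraMap F _ (H10.cj F q a))
    rw [hτ, ← map_pow, ← H10.cj_apply, cj_cj]
    rfl
  let ψ := (Algebra.IsAlgebraic.algEquivEquivAlgHom F (AdjoinRoot P)).symm
    (AdjoinRoot.liftAlgHom P _ _ h1)
  have h2 : ψ α = β ^ q := AdjoinRoot.liftAlgHom_root P _ _ h1
  have h3 : ψ β = α ^ q := by
    have e := congrArg ψ hS
    rw [map_mul, map_one, h2] at e
    rw [eq_inv_of_mul_eq_one_right e, eq_inv_of_mul_eq_one_left hS, inv_pow]
  obtain ⟨i, hi⟩ := (FiniteField.bijective_frobeniusAlgEquivOfAlgebraic_pow F (AdjoinRoot P)).2 ψ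
  have h4 : ψ * ψ = FiniteField.frobeniusAlgEquivOfAlgebraic F (AdjoinRoot P) ^ 1 := by
    apply AlgEquiv.coe_algHom_injective
    apply AdjoinRoot.algHom_ext
    change ψ (ψ α) = α ^ Fintype.card F
    rw [h2, map_pow, h3, ← pow_mul, hF.out, sq]
  rw [← hi, ← pow_add, pow_eq_pow_iff_modEq, FiniteField.orderOf_frobeniusAlgEquivOfAlgebraic] at h4
  have := h4.of_dvd (he.two_dvd.trans (dvd_of_eq (H67.finrank_adjoinRoot P).symm))
  unfold Nat.ModEq at this
  omega

theorem ti_of_even (hf : IsSesq (sig F q) ε f) (hT : Iso f T) {P : F[X]} (hP : Irreducible P)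
    (he : Even P.natDegree) : Ort f (LinearMap.ker (aeval T P)) (LinearMap.ker (aeval T P)) := by
  have hd : 2 ≤ P.natDegree := by have := hP.natDegree_pos; obtain ⟨k, hk⟩ := he; omega
  obtain ⟨R, S, hRS⟩ := (hP.coprime_iff_not_dvd (n := X)).2 fun h => by
    have := natDegree_le_of_dvd h X_ne_zero
    rw [natDegree_X] at this; omega
  obtain ⟨a, b, hab⟩ := (hP.coprime_iff_not_dvd).2
    (not_dvd_of_even (q := q) (S := S) hP he ⟨-R, by rw [← hRS]; ring⟩)
  set W := LinearMap.ker (aeval T P)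
  have hW : TInv T W := TInv.ker_aeval T P
  have h1 : ∀ x, ∀ y ∈ W, f (T x) y = f x (aeval T S y) := fun x y hy => by
    have e := congrArg (fun R => aeval T R y) hRS
    simp only [map_add, mul_comm S, map_mul, aeval_X, map_one, LinearMap.add_apply,
      Module.End.mul_apply, LinearMap.mem_ker.1 hy, map_zero, zero_add, Module.End.one_apply] at e
    rw [← hT x, e]
  have h2 : ∀ (n : ℕ) x, ∀ y ∈ W, f ((T ^ n) x) y = f x ((aeval T S ^ n) y) := fun n => by
    induction n with
    | zero => simp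
    | succ n ih =>
      intro x y hy
      rw [pow_succ', Module.End.mul_apply, h1 _ _ hy, ih _ _ (hW.aeval S y hy), pow_succ,
        Module.End.mul_apply]
  have h3 : ∀ (R : F[X]) x, ∀ y ∈ W, f (aeval T R x) y =
      f x (aeval T ((R.map (sig F q : F →+* F)).comp S) y) := fun R x y hy => by
    induction R using Polynomial.induction_on' with
    | add p r hp hr =>
      simp only [Polynomial.map_add, add_comp, map_add, LinearMap.add_apply, hf.add_left,
        hf.add_right, hp, hr]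
    | monomial n c =>
      simp only [Polynomial.map_monomial, monomial_comp, map_mul, aeval_C, map_pow, aeval_monomial,
        Algebra.algebraMap_eq_smul_one, smul_mul_assoc, one_mul, LinearMap.smul_apply, hf.smul_left,
        hf.smul_right, h2 n x y hy, RingHom.coe_coe, hf.invol]
  intro x hx y hy
  have e := congrArg (fun R => aeval T R y) hab
  simp only [map_add, mul_comm b, map_mul, map_one, LinearMap.add_apply,
    Module.End.mul_apply, LinearMap.mem_ker.1 hy, map_zero, zero_add, Module.End.one_apply] at e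
  rw [← e, ← h3 _ _ _ (hW.aeval b y hy), LinearMap.mem_ker.1 hx, hf.zero_left]

theorem ti_plane_of_even (hf : IsSesq (sig F q) ε f) (hT : Iso f T) (hd : Fintype.card ι = 4)
    {P : F[X]} (hP : Irreducible P) (he : Even P.natDegree) {x : ι → F} (hx : x ≠ 0)
    (h0 : aeval T P x = 0) :
    ∃ W : Submodule F (ι → F), (finrank F W = 2 ∧ Ort f W W) ∧ TInv T W := by
  have h1 := ti_of_even hf hT hP he
  refine ⟨_, ⟨?_, h1⟩, TInv.ker_aeval T P⟩
  have h2 := (nd_top hf).two_mul_le hf le_top h1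
  rw [finrank_top, finrank_fun', hd] at h2
  have h3 := finrank_pos_of_ne_bot ((Submodule.ne_bot_iff _).2 ⟨x, h0, hx⟩ :
    LinearMap.ker (aeval T P) ≠ ⊥)
  by_contra h4
  obtain ⟨v, hv, hv0, c, hc⟩ := eig_of_finrank_one (TInv.ker_aeval T P) (by omega)
  rw [LinearMap.mem_ker, Module.End.aeval_apply_of_hasEigenvector
    ⟨Module.End.mem_eigenspace_iff.2 hc, hv0⟩, smul_eq_zero] at hv
  exact not_root_of_irr hP (by have := hP.natDegree_pos; obtain ⟨k, hk⟩ := he; omega) c
    (hv.resolve_right hv0)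

/-- in the orthogonal complement of an isotropic eigenvector -/
theorem exists_quot_eig (hf : IsSesq (sig F q) ε f) (hT : Iso f T) (hd : Fintype.card ι = 4)
    (h : ¬ ∃ W : Submodule F (ι → F), (finrank F W = 2 ∧ Ort f W W) ∧ TInv T W)
    {v : ι → F} {l : F} (h0 : v ≠ 0) (hv : T v = l • v) (h4 : f v v = 0) :
    ∃ w, f v w = 0 ∧ w ∉ span F {v} ∧ ∃ μ a : F, T w = μ • w + a • v := by
  set W := H9.perp hf (span F {v})
  have hW : TInv T W := hT.tInv_perp hf (tInv_line hv)
  have hm : ∀ w ∈ W, f v w = 0 := fun w hw => (H9.mem_perp' hf).1 hw v (mem_span_singleton_self v)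
  have h3 : _ + finrank F W = _ := H9.finrank_add_finrank_perp hf (span F {v})
  rw [finrank_span_singleton h0, hd] at h3
  obtain ⟨w, hw, hw'⟩ : ∃ w ∈ W, w ∉ span F {v} := by
    by_contra hn
    push Not at hn
    have := Submodule.finrank_mono (show W ≤ span F {v} from hn)
    rw [finrank_span_singleton h0] at this
    omega
  by_cases h1 : T w ∈ span F {v, w}
  · obtain ⟨a, μ, e⟩ := mem_span_pair.1 h1
    exact ⟨w, hm w hw, hw', μ, a, by rw [← e, add_comm]⟩
  have hvW : v ∈ W := (H9.mem_perp hf).2 (ort_span_span hf h4 v (mem_span_singleton_self v))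
  have h5 : span F {T w, v, w} = W := by
    refine Submodule.eq_of_le_of_finrank_le (span_le.2 ?_) ?_
    · rintro x (rfl | rfl | rfl)
      exacts [hW w hw, hvW, hw]
    · have := Submodule.finrank_lt_finrank_of_lt (show span F {v, w} < span F {T w, v, w} from
        lt_of_le_of_ne (span_mono (Set.subset_insert _ _)) fun e => h1 (e ▸ subset_span (by simp)))
      rw [finrank_span_pair (pair_indep h0 hw')] at this
      omega
  obtain ⟨a, z, hz, e⟩ := mem_span_insert.1 (h5 ▸ hW _ (hW w hw) : T (T w) ∈ span F {T w, v, w})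
  obtain ⟨c, b, rfl⟩ := mem_span_pair.1 hz
  by_cases hr : ∃ μ : F, μ ^ 2 = a * μ + b
  · obtain ⟨μ, hμ⟩ := hr
    refine ⟨T w - (a - μ) • w, hm _ (W.sub_mem (hW w hw) (W.smul_mem _ hw)), fun hn => h1 ?_, μ, c, ?_⟩
    · obtain ⟨t, ht⟩ := mem_span_singleton.1 hn
      exact mem_span_pair.2 ⟨t, a - μ, by rw [ht, sub_add_cancel]⟩
    · rw [map_sub, map_smul, e, show b = μ ^ 2 - a * μ by rw [hμ]; ring]
      module
  · push Not at hr
    have hdeg : (X ^ 2 - C a * X - C b : F[X]).natDegree = 2 := by compute_degree!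
    refine absurd (ti_plane_of_even hf hT hd (P := X ^ 2 - C a * X - C b)
      ((Polynomial.irreducible_iff_roots_eq_zero_of_degree_le_three (by omega) (by omega)).2 ?_)
      (by rw [hdeg]; exact even_two) (x := T w - l • w) (fun e' => h1 ?_) ?_) h
    · refine Multiset.eq_zero_of_forall_notMem fun μ hμ => hr μ ?_
      have := isRoot_of_mem_roots hμ
      simp only [IsRoot, eval_sub, eval_pow, eval_X, eval_mul, eval_C] at this
      linear_combination this
    · exact mem_span_pair.2 ⟨0, l, by rw [sub_eq_zero.1 e', zero_smul, zero_add]⟩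
    · simp only [map_sub, map_mul, map_pow, aeval_X, aeval_C, Algebra.algebraMap_eq_smul_one,
        LinearMap.sub_apply, sq, Module.End.mul_apply, LinearMap.smul_apply, map_smul, map_add,
        Module.End.one_apply, e, hv]
      module

theorem su4_cases (hf : IsSesq (sig F q) ε f) (hT : Iso f T) (hd : Fintype.card ι = 4) :
    (∃ W : Submodule F (ι → F), (finrank F W = 1 ∧ Nd f W) ∧ TInv T W) ∨
      ∃ W : Submodule F (ι → F), (finrank F W = 2 ∧ Ort f W W) ∧ TInv T W := by
  by_contra hn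
  obtain ⟨n1, n2⟩ := not_or.1 hn
  have h : ∀ v (c : F), T v = c • v → f v v = 0 := fun v c hv => by
    by_contra h0
    exact n1 ⟨_, (nd_line hf h0).symm, tInv_line hv⟩
  by_cases hr : ∃ c, T.charpoly.eval c = 0
  · obtain ⟨l, hl⟩ := hr
    obtain ⟨v, hv⟩ := ((Module.End.hasEigenvalue_iff_isRoot_charpoly T l).2 hl).exists_hasEigenvector
    have h0 := hv.2
    have hv := hv.apply_eq_smul
    have h3 := h v l hv
    have st : ∀ w, f v w = 0 → w ∉ span F {v} → ∀ μ a : F, T w = μ • w + a • v →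
        f w w ≠ 0 ∧ μ = l ∧ a ≠ 0 := fun w h1 h2 μ a hw => by
      have h4 : f w w ≠ 0 := fun h4 => n2 (ti_pair hf h0 h2 hv h3 h1 h4 hw)
      exact ⟨h4, eig_step hf h hv h1 h4 hw⟩
    obtain ⟨w, w1, w2, μ, a, w3⟩ := exists_quot_eig hf hT hd n2 h0 hv h3
    obtain ⟨w4, rfl, w5⟩ := st w w1 w2 μ a w3
    have h4 := H9.finrank_add_finrank_perp hf (span F {v, w})
    rw [finrank_span_pair (pair_indep h0 w2), hd] at h4
    obtain ⟨u, u0, u2, μ', b, u3⟩ := exists_second (hT.tInv_perp hf (tInv_span_pair (u := v) (v := w)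
      (mem_span_pair.2 ⟨μ, 0, by simp [hv]⟩) (mem_span_pair.2 ⟨a, μ, by rw [w3, add_comm]⟩)))
      (by omega) (v := v) ((H9.mem_perp hf).2 fun x hx => by
        obtain ⟨s, t, rfl⟩ := mem_span_pair.1 hx
        simp [hf.add_right, hf.smul_right, h3, w1]) h0
    have u1 := (H9.mem_perp' hf).1 u0 v (subset_span (by simp))
    have u6 := (H9.mem_perp' hf).1 u0 w (subset_span (by simp))
    obtain ⟨u4, rfl, u5⟩ := st u u1 u2 μ' b u3
    refine (st (b • w - a • u) (by simp [hf.sub_right, hf.smul_right, w1, u1]) (fun hn => ?_) μ' 0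
      (by rw [map_sub, map_smul, map_smul, w3, u3]; module)).2.2 rfl
    obtain ⟨t, ht⟩ := mem_span_singleton.1 hn
    have := congrArg (f · u) ht
    simp only [hf.sub_left, hf.smul_left, u1, u6] at this
    exact mul_ne_zero w5 u4 (by linear_combination this)
  · push Not at hr
    have : Nontrivial ι := Fintype.one_lt_card_iff_nontrivial.1 (by omega)
    obtain ⟨P, hP, -, hdv, v, -, h0, hv⟩ := exists_irred_vec T.charpoly_monic.ne_zero (TInv.top T)
      (fun w _ => by rw [T.aeval_self_charpoly, LinearMap.zero_apply]) top_ne_bot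
    obtain ⟨c1, c2, c3⟩ := deg_cases T.charpoly_monic hr hP hdv
    rw [LinearMap.charpoly_natDegree, finrank_fun', hd] at c2 c3
    exact n2 (ti_plane_of_even hf hT hd hP (Nat.even_iff.2 (by omega)) h0 hv)

variable {n : ℕ}

/-- the matrix of an element of `SU` -/
def suHom (n : ℕ) (F : Type u) [Field F] (q : ℕ) : SU n F q →* Matrix (Fin n) (Fin n) F :=
  ⟨⟨sm, sm_one⟩, sm_mul⟩

theorem exists_su {T : End F (Fin n → F)} (h : Iso (hermForm n F q) T)
    (hd : LinearMap.det T = 1) : ∃ g : SU n F q, toLin' (sm g) = T :=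
  ⟨mkSU (LinearMap.toMatrix' T) (herm_iso_iff.1 (by rwa [toLin'_toMatrix']))
    (by rwa [LinearMap.det_toMatrix']), toLin'_toMatrix' T⟩

theorem half_SU_sub (hn : 2 ≤ n) (S : Submodule F (Fin n → F) → Prop)
    (hI : ∀ W W', S W → S W' → Ism (hermForm n F q) 0 W W') {U U' : Submodule F (Fin n → F)}
    (hU : S U) (hU' : S U') (hne : U ≠ U') (hD : ∀ t : F, t ^ (q + 1) = 1 →
      ∃ T, Iso (hermForm n F q) T ∧ LinearMap.det T = t ∧ U.map T = U) :
    Half (SU n F q) fun g => ∃ W, S W ∧ TInv (toLin' (sm g)) W := by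
  have := nontrivial_SU (F := F) (q := q) hn
  refine half_sub (suHom n F q) S (fun W W' h h' => ?_) ⟨U, U', hU, hU', hne⟩
  have hw := ws_herm (isSesq_herm (F := F) (q := q) (n := n)) sig_ne_refl
  obtain ⟨a, a1, a2⟩ := hw.witt_map (hI W U h hU)
  obtain ⟨b, b1, b2⟩ := hw.witt_map (hI U W' hU h')
  have a3 := herm_det (IG.iso a1)
  have b3 := herm_det (IG.iso b1)
  obtain ⟨D, d1, d2, d3⟩ := hD (LinearMap.det (b : End F (Fin n → F)) *
    LinearMap.det (a : End F (Fin n → F)))⁻¹ (by rw [inv_pow, mul_pow, a3, b3, mul_one, inv_one])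
  obtain ⟨g, hg⟩ := exists_su (((IG.iso b1).mul d1).mul (IG.iso a1)) (by
    rw [map_mul, map_mul, d2, mul_right_comm, mul_inv_cancel₀ (mul_ne_zero
      (ne_zero_pow (by omega) (b3 ▸ one_ne_zero)) (ne_zero_pow (by omega) (a3 ▸ one_ne_zero)))])
  refine ⟨g, ?_⟩
  change W.map (toLin' (sm g)) = W'
  rw [hg, Module.End.mul_eq_comp, Module.End.mul_eq_comp, Submodule.map_comp, Submodule.map_comp,
    a2, d3, b2]

theorem half_SU_line (hn : 2 ≤ n) : Half (SU n F q) fun g => ∃ W : Submodule F (Fin n → F),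
    (finrank F W = 1 ∧ Nd (hermForm n F q) W) ∧ TInv (toLin' (sm g)) W := by
  have hf := isSesq_herm (F := F) (q := q) (n := n)
  have h1 : ∀ i : Fin n, hermForm n F q (Pi.single i 1) (Pi.single i 1) ≠ 0 := fun i => by
    rw [hermForm, Finset.sum_eq_single i (fun j _ hj => by simp [hj]) (by simp)]
    simp
  obtain ⟨i, j, hij⟩ := (Fin.nontrivial_iff_two_le.2 hn).exists_pair_ne
  refine half_SU_sub hn _ (fun W W' h h' => ism_herm hf h.2 h'.2 (h.1.trans h'.1.symm))
    (nd_line hf (h1 i)).symm (nd_line hf (h1 j)).symm (fun e => ?_) fun t ht => ?_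
  · obtain ⟨a, ha⟩ := mem_span_singleton.1 (e ▸ mem_span_singleton_self _ :
      (Pi.single i 1 : Fin n → F) ∈ span F {Pi.single j 1})
    simpa [hij] using congrFun ha i
  · have h2 := iso_diag (F := F) (q := q) (d := Function.update 1 i t) fun k => by
      by_cases hk : k = i <;> simp [hk, ht]
    refine ⟨_, h2, by simp [Finset.prod_update_of_mem], (tInv_line (c := t) ?_).map_eq (h2.inj hf)⟩
    ext k
    by_cases hk : k = i <;> simp [hk, H99.diag_apply]

theorem cov_SU4 : Cov2 (SU 4 F q) := by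
  have hf := isSesq_herm (F := F) (q := q) (n := 4)
  obtain ⟨U, U', h1, h2, h3⟩ := herm_exists_pp hf (nd_top hf) (by simp; decide)
  have hP := pp_of_sup hf h1 h2 h3
  have d1 := hP.finrank hf
  have d2 := hP.symm.finrank hf
  rw [Fintype.card_fin] at d1 d2
  refine cov2_of_half (half_SU_line (by omega)) (half_SU_sub (by omega)
    (fun W => finrank F W = 2 ∧ Ort (hermForm 4 F q) W W)
    (fun W W' h h' => ism_of_ti (h.1.trans h'.1.symm) h.2 h'.2 (fun _ _ => rfl) fun _ _ => rfl)
    ⟨by omega, h1⟩ ⟨by omega, h2⟩ (fun e => ?_) fun t ht => ?_)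
    fun g => su4_cases hf (herm_iso_iff.2 (sm_isIsom g)) (Fintype.card_fin 4)
  · rw [← e, sup_idem] at h3
    rw [h3, finrank_top, finrank_fun', Fintype.card_fin] at d1
    omega
  · obtain ⟨T, t1, t2, t3, -⟩ := hP.exists_det (by omega) ht
    exact ⟨T, t1, t2, t3⟩

end Cfsg.Agent.H68
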