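import Cfsg.Agent.H68.CovJ
import Cfsg.Agent.H67.El1

/-! Normal 2-covering of `SU_3(3^a)`. -/

set_option autoImplicit false
set_option backward.isDefEq.respectTransparency false

namespace Cfsg.Agent.H68

open Polynomial Module Matrix Submodule Cfsg.Agent.H98 Cfsg.Agent.H99 Cfsg.Agent.H10

universe u
variable {F : Type u} [Field F] {ι : Type} [Fintype ι] [DecidableEq ι] {σ : F ≃+* F} {ε : F}
  {f : (ι → F) → (ι → F) → F} {g : Matrix ι ι F}

theorem two_ne_of_three (h3 : (3 : F) = 0) : (2 : F) ≠ 0 := fun h =>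
  one_ne_zero (α := F) (by linear_combination h3 - h)

theorem cube_inj (h3 : (3 : F) = 0) {x y : F} (h : x ^ 3 = y ^ 3) : x = y :=
  sub_eq_zero.1 (pow_eq_zero_iff (n := 3) (by omega) |>.1
    (by linear_combination h - (x ^ 2 * y - x * y ^ 2) * h3))

theorem exists_as_const [Finite F] (h3 : (3 : F) = 0) (hσ : ∀ a, σ (σ a) = a) :
    ∃ c, σ c = c ∧ ∀ x : F, x ^ 3 - x ≠ c := by
  have h1 : ¬ Function.Surjective fun x : F => x ^ 3 - x := fun h =>
    zero_ne_one (Finite.injective_iff_surjective.2 h (show (0 : F) ^ 3 - 0 = 1 ^ 3 - 1 by simp))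
  have h2 : Function.Surjective fun s : {s : F // σ s = -s} =>
      (⟨s.1 ^ 3 - s.1, by rw [map_sub, map_pow, s.2]; ring⟩ : {s : F // σ s = -s}) := by
    refine Finite.injective_iff_surjective.1 fun s t h => Subtype.ext ?_
    have e : s.1 ^ 3 - s.1 = t.1 ^ 3 - t.1 := congrArg Subtype.val h
    have e2 : σ (s.1 - t.1) = -(s.1 - t.1) := by rw [map_sub, s.2, t.2]; ring
    have e3 : (s.1 - t.1) * ((s.1 - t.1 - 1) * (s.1 - t.1 + 1)) = 0 := by
      linear_combination e - (s.1 ^ 2 * t.1 - s.1 * t.1 ^ 2) * h3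
    rcases mul_eq_zero.1 e3 with h | h
    · exact sub_eq_zero.1 h
    · exfalso
      rcases mul_eq_zero.1 h with h | h
      · rw [sub_eq_zero.1 h, map_one] at e2
        exact two_ne_of_three h3 (by linear_combination e2)
      · rw [eq_neg_of_add_eq_zero_left h, map_neg, map_one] at e2
        exact two_ne_of_three h3 (by linear_combination -e2)
  by_contra hn
  push Not at hn
  refine h1 fun d => ?_
  obtain ⟨x, hx⟩ := hn (d + σ d) (by rw [map_add, hσ, add_comm])
  obtain ⟨s, hs⟩ := h2 ⟨d - σ d, by rw [map_sub, hσ, neg_sub]⟩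
  have e : s.1 ^ 3 - s.1 = d - σ d := congrArg Subtype.val hs
  exact ⟨-(x + s.1), by linear_combination -hx - e - (x ^ 2 * s.1 + x * s.1 ^ 2 + d) * h3⟩

theorem as_deg (c : F) : (X ^ 3 - X - C c : F[X]).natDegree = 3 := by compute_degree!

theorem as_monic (c : F) : (X ^ 3 - X - C c : F[X]).Monic := by monicity!

theorem as_irr {c : F} (hc : ∀ x : F, x ^ 3 - x ≠ c) : Irreducible (X ^ 3 - X - C c : F[X]) := by
  refine (Polynomial.irreducible_iff_roots_eq_zero_of_degree_le_three (by rw [as_deg]; omega)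
    (by rw [as_deg])).2 (Multiset.eq_zero_of_forall_notMem fun μ hμ => hc μ ?_)
  have := isRoot_of_mem_roots hμ
  simp only [IsRoot, eval_sub, eval_pow, eval_X, eval_C] at this
  linear_combination this

theorem as_aeval {A : Type*} [Ring A] [Algebra F A] {c : F} {J : A} :
    aeval J (X ^ 3 - X - C c) = 0 ↔ J ^ 3 - J = c • 1 := by
  simp only [map_sub, map_pow, aeval_X, aeval_C, Algebra.algebraMap_eq_smul_one, sub_eq_zero]

theorem not_norm_of_tv (h3 : (3 : F) = 0) {v x : ι → F} {φ : (ι → F) → F}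
    (hg : ∀ x, g *ᵥ x = x + φ x • v) (hv : φ v = 0) (h0 : v ≠ 0) (hx : φ x ≠ 0) {c : F}
    (hc : ∀ x : F, x ^ 3 - x ≠ c) {J : Matrix ι ι F} (hJ : J ^ 3 - J = c • 1) (e : F) :
    g * J ≠ (J + e • 1) * g := by
  intro h
  have key : ∀ y, φ y • J *ᵥ v + e • y = (φ (J *ᵥ y) - e * φ y) • v := fun y => by
    have := congrArg (· *ᵥ y) h
    simp only [← mulVec_mulVec, hg, add_mulVec, smul_mulVec, one_mulVec, mulVec_add,
      mulVec_smul] at this
    linear_combination (norm := module) -this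
  obtain ⟨l, hl⟩ : ∃ l : F, J *ᵥ v = l • v := by
    by_cases he : e = 0
    · have := key x
      rw [he, zero_smul, add_zero] at this
      exact ⟨_, by rw [← inv_smul_smul₀ hx (J *ᵥ v), this, smul_smul]⟩
    · have h1 := key v
      rw [hv, zero_smul, zero_add, mul_zero, sub_zero] at h1
      have h2 := key (J *ᵥ v)
      rw [← smul_left_injective F h0 h1, ← add_smul, ← two_mul] at h2
      exact ⟨_, by rw [← inv_smul_smul₀ (mul_ne_zero (two_ne_of_three h3) he) (J *ᵥ v), h2,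
        smul_smul]⟩
  have := congrArg (· *ᵥ v) hJ
  simp only [pow_three, sub_mulVec, ← mulVec_mulVec, hl, mulVec_smul, smul_mulVec,
    one_mulVec, smul_smul, ← sub_smul] at this
  exact hc l (by rw [← smul_left_injective F h0 this]; ring)

theorem decomp_of_nil {m : Matrix ι ι F} (hm : m ^ 3 = 0) {κ : Type} [Fintype κ] (u : κ → ι → F)
    (hu : LinearIndependent F fun k => m *ᵥ m *ᵥ u k) (hc : 3 * Fintype.card κ = Fintype.card ι)
    (x : ι → F) : ∃ y, ∃ a : κ → F, x = m *ᵥ y + ∑ k, a k • u k := by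
  have := top_of_nil hm u hu hc (U := LinearMap.range (toLin' m) ⊔ span F (Set.range u))
    (fun v _ => mem_sup_left ⟨v, rfl⟩) fun k => mem_sup_right (subset_span ⟨k, rfl⟩)
  obtain ⟨_, ⟨y, rfl⟩, z, hz, e⟩ := mem_sup.1 (this ▸ mem_top : x ∈ _)
  obtain ⟨a, rfl⟩ := (mem_span_range_iff_exists_fun F).1 hz
  exact ⟨y, a, e.symm⟩

theorem span_inv {α : Type*} {b : α → ι → F} (h : ∀ a, g *ᵥ b a ∈ span F (Set.range b)) :
    ∀ v ∈ span F (Set.range b), g *ᵥ v ∈ span F (Set.range b) := fun v hv =>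
  (span_le (p := (span F (Set.range b)).comap (toLin' g))).2 (by rintro _ ⟨a, rfl⟩; exact h a) hv

theorem exists_J_unip [Nonempty ι] (h3 : (3 : F) = 0) (hf : IsSesq σ ε f) (hg : adj σ f g * g = 1)
    {l : F} (hl : l * σ l = 1) (hm : (g - l • 1) ^ 3 = 0) {κ : Type} [Fintype κ] (u : κ → ι → F)
    (hu : LinearIndependent F fun k => (g - l • 1) *ᵥ (g - l • 1) *ᵥ u k)
    (hc : 3 * Fintype.card κ = Fintype.card ι)
    (hz : ∀ z : Matrix ι ι F, adj σ f z = z → g * z = z * g →
      ∃ a : F, (g - l • 1) * (g - l • 1) * (z - a • 1) = 0) {c : F} (hσc : σ c = c) :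
    ∃ J, (adj σ f J = J ∧ J ^ 3 - J = c • 1) ∧ g * J = (J + 1) * g := by
  have hg' := mul_eq_one_comm.1 hg
  have g3 : g * g * g = l ^ 3 • 1 := by
    simp only [pow_three', sub_mul, mul_sub, smul_mul_assoc, mul_smul_comm, one_mul, mul_one] at hm
    linear_combination (norm := module) hm + h3 • (l • (g * g) - l ^ 2 • g)
  let b : Fin 3 × κ → ι → F := fun a => ![u a.2, g *ᵥ u a.2, g *ᵥ g *ᵥ u a.2] a.1
  have h2 : ∀ k, g *ᵥ b (2, k) = l ^ 3 • b (0, k) := fun k => by
    change g *ᵥ g *ᵥ g *ᵥ u k = l ^ 3 • u k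
    rw [mulVec_mulVec, mulVec_mulVec, g3, smul_mulVec, one_mulVec]
  have hb : span F (Set.range b) = ⊤ := by
    refine top_of_nil hm u hu hc (fun v hv => ?_) fun k => subset_span ⟨(0, k), rfl⟩
    rw [sub_mulVec, smul_mulVec, one_mulVec]
    refine sub_mem (span_inv ?_ v hv) (smul_mem _ _ hv)
    rintro ⟨i, k⟩
    fin_cases i
    exacts [subset_span ⟨(1, k), rfl⟩, subset_span ⟨(2, k), rfl⟩,
      h2 k ▸ smul_mem _ _ (subset_span ⟨(0, k), rfl⟩)]
  obtain ⟨J₁, hJ⟩ := exists_J1 (g := g) h3 b hb hc (fun _ => rfl) (fun _ => rfl)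
    fun k => h2 k ▸ smul_mem _ _ (subset_span ⟨k, rfl⟩)
  refine exists_J_of h3 hf hg hJ (τ := l + σ l) (by rw [map_add, hf.invol, add_comm]) ?_
    (fun z J z1 z2 z3 z4 => ?_) hσc
  · have e : g + adj σ f g - (l + σ l) • 1 = (g - l • 1) * (1 - σ l • adj σ f g) := by
      simp only [sub_mul, mul_sub, smul_mul_assoc, mul_smul_comm, one_mul, mul_one, hg']
      linear_combination (norm := module) -hl • adj σ f g
    have c0 : Commute g (adj σ f g) := hg'.trans hg.symm
    rw [e, Commute.mul_pow, hm, zero_mul]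
    exact (Commute.one_right _).sub_right
      ((c0.sub_left ((Commute.one_left _).smul_left l)).smul_right _)
  · obtain ⟨a, ha⟩ := hz z z1 z2
    refine ⟨a, sub_eq_zero.1 (eq_zero_of_sq h3 hg (J := J) (by simp [mul_sub, sub_mul]) ?_
      (by simp [mul_sub, sub_mul, z3]) ha)⟩
    simp only [sub_mul, mul_sub, smul_mul_assoc, mul_smul_comm, one_mul, mul_one, z4, add_mul]
    abel

theorem su3_cases [Fintype F] (h3 : (3 : F) = 0) (hf : IsSesq σ ε f) (hg : adj σ f g * g = 1)
    (hd : Fintype.card ι = 3) {c : F} (hσc : σ c = c) (hc : ∀ x : F, x ^ 3 - x ≠ c) :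
    (∃ W : Submodule F (ι → F), (finrank F W = 1 ∧ Nd f W) ∧ TInv (toLin' g) W) ∨
      ∃ J, (adj σ f J = J ∧ J ^ 3 - J = c • 1) ∧
        ∃ e ∈ (⊤ : AddSubgroup F), g * J = (J + e • 1) * g := by
  have : Nontrivial ι := Fintype.one_lt_card_iff_nontrivial.1 (by omega)
  have hT := (H67.iso_iff_adj hf).2 hg
  have hg' := mul_eq_one_comm.1 hg
  refine or_iff_not_imp_left.2 fun n1 => ?_
  have h : ∀ v (c : F), toLin' g v = c • v → f v v = 0 := fun v c hv => by
    by_contra h0
    exact n1 ⟨_, (nd_line hf h0).symm, tInv_line hv⟩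
  by_cases hr : ∃ c, g.charpoly.eval c = 0
  · obtain ⟨l, hl⟩ := hr
    obtain ⟨v, h0, hv⟩ := exists_eig_of_root hl
    have v3 := h v l hv
    have h4 := H9.finrank_add_finrank_perp hf (span F {v})
    rw [finrank_span_singleton h0, hd] at h4
    have hvW : v ∈ H9.perp hf (span F {v}) :=
      (H9.mem_perp hf).2 (ort_span_span hf v3 v (mem_span_singleton_self v))
    obtain ⟨w, w0, w2, μ, a, w3⟩ := exists_second (hT.tInv_perp hf (tInv_line hv)) (by omega) hvW h0
    have w1 := (H9.mem_perp' hf).1 w0 v (mem_span_singleton_self v)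
    have w1' := hf.eq_zero_comm.1 w1
    have w4 : f w w ≠ 0 := fun w4 => by
      obtain ⟨W, ⟨a1, a2⟩, -⟩ := ti_pair hf h0 w2 hv v3 w1 w4 w3
      have := (nd_top hf).two_mul_le hf le_top a2
      rw [finrank_top, finrank_fun'] at this
      omega
    obtain ⟨rfl, w5⟩ := eig_step hf h hv w1 w4 w3
    rw [toLin'_apply] at w3
    have hI : ∀ x y, f (g *ᵥ x) (g *ᵥ y) = f x y := hT
    have hl : μ * σ μ = 1 := by
      have := hI w w
      simp only [w3, hf.add_left, hf.add_right, hf.smul_left, hf.smul_right, v3, w1, w1'] at this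
      exact mul_right_cancel₀ w4 (by linear_combination this)
    have hW : span F {v, w} = H9.perp hf (span F {v}) := Submodule.eq_of_le_of_finrank_eq
      (span_le.2 (by rintro x (rfl | rfl) <;> assumption))
      (by rw [finrank_span_pair (pair_indep h0 w2)]; omega)
    have m0 : ∀ x, (g - μ • 1) *ᵥ x = g *ᵥ x - μ • x := fun x => by
      rw [sub_mulVec, smul_mulVec, one_mulVec]
    have m1 : ∀ x, ∃ s t : F, s • v + t • w = (g - μ • 1) *ᵥ x := fun x => by
      refine mem_span_pair.1 (hW ▸ (H9.mem_perp hf).2 fun y hy => ?_)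
      obtain ⟨r, rfl⟩ := mem_span_singleton.1 hy
      have := hI x v
      rw [hv, hf.smul_right] at this
      rw [m0, hf.smul_right, hf.sub_left, hf.smul_left, ← this, ← mul_assoc μ, hl, one_mul,
        sub_self, mul_zero]
    have m2 : (g - μ • 1) *ᵥ v = 0 := by rw [m0, hv, sub_self]
    have m3 : (g - μ • 1) *ᵥ w = a • v := by rw [m0, w3, add_sub_cancel_left]
    have m4 : ∀ x, (g - μ • 1) *ᵥ (g - μ • 1) *ᵥ (g - μ • 1) *ᵥ x = 0 := fun x => by
      obtain ⟨s, t, e⟩ := m1 x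
      simp only [← e, mulVec_add, mulVec_smul, m2, m3, smul_zero, zero_add]
    have hm : (g - μ • 1) ^ 3 = 0 := ext_of_mulVec_single fun i => by
      rw [pow_three', ← mulVec_mulVec, ← mulVec_mulVec, m4, zero_mulVec]
    obtain ⟨u, hu⟩ : ∃ u, f u v ≠ 0 := by
      by_contra hn
      push Not at hn
      exact h0 (hf.eq_zero_of_right hn)
    have hi : LinearIndependent F fun _ : Unit => (g - μ • 1) *ᵥ (g - μ • 1) *ᵥ u := by
      refine linearIndependent_unique_iff.2 ?_
      obtain ⟨s, t, e⟩ := m1 u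
      rw [← e, mulVec_add, mulVec_smul, mulVec_smul, m2, m3, smul_zero, zero_add]
      refine smul_ne_zero ?_ (smul_ne_zero w5 h0)
      rintro rfl
      have := hI u w
      rw [m0, zero_smul, add_zero, eq_sub_iff_add_eq] at e
      simp only [w3, ← e, hf.add_left, hf.add_right, hf.smul_left, hf.smul_right, v3, w1] at this
      refine mul_ne_zero (mul_ne_zero (left_ne_zero_of_mul_eq_one hl) ((map_ne_zero σ).2 w5)) hu ?_
      linear_combination this - f u w * hl
    refine (exists_J_unip h3 hf hg hl hm (fun _ : Unit => u) hi (by simp [hd])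
      (fun z _ z2 => ?_) hσc).imp fun J ⟨j1, j2⟩ => ⟨j1, 1, trivial, by rw [one_smul, j2]⟩
    obtain ⟨y, s, e⟩ := decomp_of_nil hm _ hi (by simp [hd]) (z *ᵥ u)
    refine ⟨s (), ext_of_mulVec_single fun i => ?_⟩
    obtain ⟨x, t, e'⟩ := decomp_of_nil hm _ hi (by simp [hd]) (Pi.single i 1)
    have z3 : (z - s () • 1) * (g - μ • 1) = (g - μ • 1) * (z - s () • 1) := by
      simp only [sub_mul, mul_sub, smul_mul_assoc, mul_smul_comm, one_mul, mul_one, z2]; module
    rw [e', ← mulVec_mulVec, ← mulVec_mulVec, mulVec_add, mulVec_mulVec x, z3, ← mulVec_mulVec,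
      Fintype.sum_unique, mulVec_smul, sub_mulVec z _ u, e, smul_mulVec, one_mulVec, Fintype.sum_unique,
      add_sub_cancel_right]
    simp only [mulVec_add, mulVec_smul, m4, smul_zero, add_zero, zero_mulVec]
  · push Not at hr
    obtain ⟨R, hR⟩ := exists_root_poly g.charpoly_monic g.aeval_self_charpoly (as_irr hc)
      fun P hP _ hdv => by
        obtain ⟨c1, c2, c3⟩ := deg_cases g.charpoly_monic hr hP hdv
        rw [charpoly_natDegree_eq_dim, hd] at c2 c3
        rw [as_deg, show P.natDegree = 3 by omega]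
    set J := aeval g R
    rw [as_aeval] at hR
    have j1 : g * J = J * g := comm_aeval rfl R
    have j2 : g * adj σ f J = adj σ f J * g := by
      have e := congrArg (adj σ f) j1
      rw [hf.adj_mul, hf.adj_mul] at e
      have : g * (adj σ f J * adj σ f g) * g = g * (adj σ f g * adj σ f J) * g := by rw [e]
      rwa [← mul_assoc g (adj σ f g), hg', one_mul, mul_assoc, mul_assoc, hg, mul_one] at this
    have j3 : adj σ f J * J = J * adj σ f J := comm_aeval j2.symm R
    have j4 : adj σ f J ^ 3 - adj σ f J = c • 1 := by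
      rw [← hf.adj_pow, ← hf.adj_sub, hR, hf.adj_smul, hf.adj_one, hσc]
    refine ⟨-(J + adj σ f J), ⟨by rw [hf.adj_neg, hf.adj_add, hf.adj_adj, add_comm], ?_⟩, 0,
      trivial, by rw [zero_smul, add_zero, mul_neg, mul_add, j1, j2, neg_mul, add_mul]⟩
    rw [Odd.neg_pow (by decide), jacobson3 h3 _ _ (by simp [j3])]
    simp only [j3, sub_self, mul_zero, zero_mul, add_zero]
    linear_combination (norm := module) -hR - j4 - h3 • c • (1 : Matrix ι ι F)

theorem exists_iso_conj [Finite F] (hf : IsSesq σ ε f) (hσ : ∃ a, σ a ≠ a) {J J' : Matrix ι ι F}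
    (h1 : adj σ f J = J) (h2 : adj σ f J' = J') (h : IsConj J J') :
    ∃ k, adj σ f k * k = 1 ∧ k * J = J' * k := by
  obtain ⟨x, hx⟩ := h
  have hx : x.val * J = J' * x.val := hx.eq
  obtain ⟨a, ha⟩ := hσ
  have hx' : adj σ f x * J' = J * adj σ f x := by
    have := congrArg (adj σ f) hx
    rwa [hf.adj_mul, hf.adj_mul, h1, h2, eq_comm] at this
  have hu : IsUnit (adj σ f x.val) := IsUnit.of_mul_eq_one (adj σ f x⁻¹.val) (by
    rw [← hf.adj_mul, Units.inv_mul, hf.adj_one])
  obtain ⟨c, c1, c2⟩ := H67.exists_star_mul_self (AddMonoidHom.mk' (adj σ f) hf.adj_add) hf.adj_mul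
    hf.adj_adj (a • 1) (adj σ f x * x) (by simp [hf.adj_mul, hf.adj_adj]) (hu.mul x.isUnit) (by simp)
    (by simp [hf.adj_smul, hf.adj_one, smul_smul, mul_comm]) (by
      simp only [AddMonoidHom.mk'_apply, hf.adj_smul, hf.adj_one, ← sub_smul]
      exact IsUnit.of_mul_eq_one ((a - σ a)⁻¹ • 1) (by
        simp [smul_smul, inv_mul_cancel₀ (sub_ne_zero.2 ha.symm)]))
  have c3 := c1 J (by simp) (by simp [hf.adj_smul, hf.adj_one])
    (by rw [← mul_assoc, ← hx', mul_assoc, ← hx, mul_assoc])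
  rw [AddMonoidHom.mk'_apply] at c2
  obtain ⟨d, rfl⟩ : IsUnit c := isUnit_of_mul_isUnit_right (c2 ▸ hu.mul x.isUnit)
  refine ⟨x * d⁻¹.val, ?_, ?_⟩
  · rw [hf.adj_mul, mul_assoc, ← mul_assoc (adj σ f x.val), ← c2, mul_assoc, Units.mul_inv, mul_one,
      ← hf.adj_mul, Units.mul_inv, hf.adj_one]
  · rw [mul_assoc, ← (Commute.units_inv_right c3).eq, ← mul_assoc, hx, mul_assoc]

theorem cov_SU3 [Fintype F] {q : ℕ} [hF : Fact (Fintype.card F = q ^ 2)] (h3 : (3 : F) = 0) :
    Cov2 (SU 3 F q) := by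
  have hf := isSesq_herm (F := F) (q := q) (n := 3)
  obtain ⟨c, c1, c2⟩ := exists_as_const h3 hf.invol
  have := nontrivial_SU (F := F) (q := q) (n := 3) (by omega)
  refine cov2_of_half (half_SU_line (by omega)) (half_J (suHom 3 F q) ⊤
    (fun J => adj (sig F q) (hermForm 3 F q) J = J ∧ J ^ 3 - J = c • 1) (fun J J' h h' => ?_)
    fun J h => ?_) fun g => su3_cases h3 hf ((H67.iso_iff_adj hf).1 (herm_iso_iff.2 (sm_isIsom g)))
      (Fintype.card_fin 3) c1 c2
  · obtain ⟨k, k1, k2⟩ := exists_iso_conj hf (exists_cj_ne F q) h.1 h'.1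
      (isConj_of_irr (as_irr c2) (as_monic c) (as_aeval.2 h.2) (as_aeval.2 h'.2))
    have k3 := herm_det ((H67.iso_iff_adj hf).2 k1)
    rw [LinearMap.det_toLin'] at k3
    obtain ⟨s, hs⟩ := Finite.injective_iff_surjective.1
      (show Function.Injective fun x : F => x ^ 3 from fun _ _ => cube_inj h3) k.det⁻¹
    have hs : s ^ 3 = k.det⁻¹ := hs
    have s1 : sig F q s * s = 1 := cube_inj h3 (by
      rw [mul_comm, norm_eq_pow, ← pow_mul, mul_comm, pow_mul, hs, inv_pow, k3, inv_one, one_pow])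
    refine ⟨mkSU (s • k) (herm_iso_iff.1 ((H67.iso_iff_adj hf).2 ?_)) ?_, ?_⟩
    · rw [hf.adj_smul, smul_mul_smul_comm, k1, s1, one_smul]
    · rw [det_smul, Fintype.card_fin, hs, inv_mul_cancel₀ (ne_zero_pow (by omega) (k3 ▸ one_ne_zero))]
    · change s • k * J = J' * s • k
      rw [smul_mul_assoc, k2, mul_smul_comm]
  · obtain ⟨e, x, he, -, hx⟩ := exists_hyperbolic_pair (F := F) (q := q) (n := 3) (by omega)
    obtain ⟨d, d0, hd⟩ := exists_skew F q
    refine ⟨utSU he hd, fun t _ => not_norm_of_tv h3 (x := x) (ut_mulVec e d) (by simp [he]) ?_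
      (by simp [hx, d0]) c2 h.2 t⟩
    rintro rfl
    simp [hf.zero_right] at hx

end Cfsg.Agent.H68
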